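import Cfsg.Agent.H133.ScCentral
import Cfsg.Agent.H65.RankOne
import Cfsg.Agent.ChevalleyStructure.NConj
import Cfsg.Agent.S1076

/-!
# Rank one relations in the group presented by (R1), (R2)

For the seven tabulated data, any field and every root `r` (not only the fundamental ones):
`n̄_r(a) x̄_r(b) n̄_r(a)⁻¹ = x̄_{-r}(-a⁻² b)` in `D.SteinbergCover K`. Over a finite field this gives (R3).
-/

set_option autoImplicit false

namespace Cfsg.Agent.H134.CoverRankOne

open Cfsg.Lie Cfsg.Agent.ChevalleyStructure Cfsg.Agent.ChevalleyStructure.Elts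
  Cfsg.Agent.H133.ScTheta Cfsg.Agent.H133.ScRels Cfsg.Agent.H133.ScCentral
  Cfsg.Agent.H65.RankOne Cfsg.Agent.S1076

universe u

variable {K : Type u} [Field K] {D : ChevalleyDatum} (hD : InList D)

/-- The rank one relation in `SL₂`. -/
theorem sl_conj {a : K} (ha : a ≠ 0) (b : K) :
    (up a * lo (-a⁻¹) * up a) * up b = lo (-(a⁻¹ ^ 2 * b)) * (up a * lo (-a⁻¹) * up a) := by
  have h : (!![1, a; 0, 1] * !![1, 0; -a⁻¹, 1] * !![1, a; 0, 1]) * !![1, b; 0, 1] =
      !![1, 0; -(a⁻¹ ^ 2 * b), 1] * (!![1, a; 0, 1] * !![1, 0; -a⁻¹, 1] * !![1, (a : K); 0, 1]) := by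
    ext i j
    fin_cases i <;> fin_cases j <;> (simp [Matrix.mul_apply, Fin.sum_univ_two, ha]; try field_simp)
  exact Subtype.ext h

include hD in
/-- The rank one relation in the Chevalley group, all roots. -/
theorem nG_conj_xG {r : ℕ} (hr : r < D.nroots) {a : K} (ha : a ≠ 0) (b : K) :
    nG hD r a * xG hD r b * (nG hD r a)⁻¹ = xG hD (D.neg r) (-(a⁻¹ ^ 2 * b)) := by
  obtain ⟨φ, -, hφ⟩ := Cfsg.Agent.S1030.result (F := K) D hD r hr
  have hup : ∀ t : K, φ (up t) = xG hD r t := fun t => Units.ext ((hφ (up t) t).1 rfl)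
  have hlo : ∀ t : K, φ (lo t) = xG hD (D.neg r) t := fun t => Units.ext ((hφ (lo t) t).2 rfl)
  have hn : nG hD r a = φ (up a * lo (-a⁻¹) * up a) := by
    rw [map_mul, map_mul, hup, hlo, nG_def, mul_assoc]
  rw [mul_inv_eq_iff_eq_mul, hn, ← hup, ← map_mul, sl_conj ha, map_mul, hlo]

theorem thetaGL_stN (r : ℕ) (t : K) : thetaGL hD K (mk D K (D.stN r t)) = nG hD r t := by
  rw [mk_stN, map_mul, map_mul, thetaGL_scGen, thetaGL_scGen, nG_def, mul_assoc]

include hD in
/-- Conjugation by `n̄_p(1)`, with the same sign for `s` and `-s`. -/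
theorem n_conj_pair {i s : ℕ} (hi : i < D.rank) (hs : s < D.nroots) :
    ∃ η : K, (η = 1 ∨ η = -1) ∧
      (∀ t : K, mk D K (D.stN (D.simple i) 1) * D.scGen K s t * (mk D K (D.stN (D.simple i) 1))⁻¹ =
        D.scGen K (D.reflectRoot i s) (η * t)) ∧
      (∀ t : K, mk D K (D.stN (D.simple i) 1) * D.scGen K (D.neg s) t * (mk D K (D.stN (D.simple i) 1))⁻¹ =
        D.scGen K (D.neg (D.reflectRoot i s)) (η * t)) := by
  obtain ⟨η₁, hη₁, h₁⟩ := n_conj (K := K) hD i s hi hs
  have hns : D.neg s < D.nroots := Reach.neg_lt hD hs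
  obtain ⟨η₂, hη₂, h₂⟩ := n_conj (K := K) hD i (D.neg s) hi hns
  obtain ⟨η, hη, hx, hx'⟩ := NConj.conj_x (F := K) hD hi hs
  rw [Reach.reflect_neg hD hi hs] at h₂
  have hrs : D.reflectRoot i s < D.nroots := Reach.reflect_lt hD hi hs
  have hnrs : D.neg (D.reflectRoot i s) < D.nroots := Reach.neg_lt hD hrs
  have e₁ : (η₁ : K) = η := by
    have h := congrArg (thetaGL hD K) (h₁ 1)
    rw [map_mul, map_mul, thetaGL_stN, thetaGL_scGen, thetaGL_scGen] at h
    have h' := hx 1
    rw [mul_inv_eq_iff_eq_mul] at h'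
    have h'' : nG hD (D.simple i) 1 * xG hD s 1 = xG hD (D.reflectRoot i s) (η * 1) * nG hD (D.simple i) 1 := h'
    rw [h''] at h
    have := xG_injective hD hrs (mul_right_cancel h)
    rw [mul_one, mul_one] at this
    exact this.symm
  have e₂ : (η₂ : K) = η := by
    have h := congrArg (thetaGL hD K) (h₂ 1)
    rw [map_mul, map_mul, thetaGL_stN, thetaGL_scGen, thetaGL_scGen] at h
    have h' := hx' 1
    rw [mul_inv_eq_iff_eq_mul] at h'
    have h'' : nG hD (D.simple i) 1 * xG hD (D.neg s) 1 =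
      xG hD (D.neg (D.reflectRoot i s)) (η * 1) * nG hD (D.simple i) 1 := h'
    rw [h''] at h
    have := xG_injective hD hnrs (mul_right_cancel h)
    rw [mul_one, mul_one] at this
    exact this.symm
  refine ⟨η, hη, fun t => ?_, fun t => ?_⟩
  · rw [h₁ t, mul_inv_cancel_right, e₁]
  · rw [h₂ t, mul_inv_cancel_right, e₂]

include hD in
/-- `n̄_r(a) x̄_r(b) n̄_r(a)⁻¹` lies in the opposite root subgroup. -/
theorem exists_conj {r : ℕ} (hr : r < D.nroots) : ∀ (a : K), a ≠ 0 → ∀ b : K,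
    ∃ c : K, mk D K (D.stN r a) * D.scGen K r b * (mk D K (D.stN r a))⁻¹ = D.scGen K (D.neg r) c := by
  refine Reach.reach hD (fun r => ∀ (a : K), a ≠ 0 → ∀ b : K,
    ∃ c : K, mk D K (D.stN r a) * D.scGen K r b * (mk D K (D.stN r a))⁻¹ = D.scGen K (D.neg r) c) ?_ ?_ r hr
  · intro i hi a ha b
    obtain ⟨m0, T⟩ := St.TabAll.exists_tab hD
    have hp := T.simple_lt i hi
    obtain ⟨η, -, h, -⟩ := n_conj_pair hD hi hp (K := K)
    have hrefl : D.reflectRoot i (D.simple i) = D.neg (D.simple i) := by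
      show (if D.simple i = D.simple i then D.neg (D.simple i) else _) = _
      rw [if_pos rfl]
    rw [hrefl] at h
    have hnp : D.neg (D.simple i) < D.nroots := Reach.neg_lt hD hp
    have e1 : mk D K (D.stN (D.simple i) (-1)) = (mk D K (D.stN (D.simple i) 1))⁻¹ := by
      rw [mk_stN, mk_stN, mul_inv_rev, mul_inv_rev, scGen_inv, scGen_inv]
      have : -(-1 : K)⁻¹ = - -(1 : K)⁻¹ := by rw [inv_neg]
      rw [this, mul_assoc]
    have e2 : mk D K (D.stN (D.simple i) a) = mk D K (D.stH (D.simple i) a) * mk D K (D.stN (D.simple i) 1) := by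
      rw [mk_stH, e1, inv_mul_cancel_right]
    refine ⟨a ^ (D.cartan i (D.neg (D.simple i))) * (η * b), ?_⟩
    have e3 : mk D K (D.stN (D.simple i) a) * D.scGen K (D.simple i) b * (mk D K (D.stN (D.simple i) a))⁻¹ =
        mk D K (D.stH (D.simple i) a) * (mk D K (D.stN (D.simple i) 1) * D.scGen K (D.simple i) b *
          (mk D K (D.stN (D.simple i) 1))⁻¹) * (mk D K (D.stH (D.simple i) a))⁻¹ := by
      rw [e2]; group
    rw [e3, h b, h_conj hD i _ hi hnp a ha, mul_inv_cancel_right]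
  · intro i hi s hs ih a ha b
    obtain ⟨η, hη, h, h'⟩ := n_conj_pair hD hi hs (K := K)
    have hη2 : η * η = 1 := NConj.sign_mul_self hη
    have hη0 : η ≠ 0 := NConj.sign_ne_zero hη
    have hinv : η⁻¹ = η := inv_eq_of_mul_eq_one_right hη2
    obtain ⟨c, hc⟩ := ih (η * a) (mul_ne_zero hη0 ha) (η * b)
    refine ⟨η * c, ?_⟩
    have e1 : mk D K (D.stN (D.simple i) 1) * mk D K (D.stN s (η * a)) * (mk D K (D.stN (D.simple i) 1))⁻¹ =
        mk D K (D.stN (D.reflectRoot i s) a) := by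
      have e : ∀ n x y : D.SteinbergCover K, n * (x * y * x) * n⁻¹ = (n * x * n⁻¹) * (n * y * n⁻¹) * (n * x * n⁻¹) := by
        intro n x y; group
      rw [mk_stN s, mk_stN (D.reflectRoot i s), e, h, h']
      have e2 : η * (η * a) = a := by rw [← mul_assoc, hη2, one_mul]
      have e3 : η * -(η * a)⁻¹ = -a⁻¹ := by
        rw [mul_inv, hinv, mul_neg, ← mul_assoc, hη2, one_mul]
      rw [e2, e3]
    have e2 : D.scGen K (D.reflectRoot i s) b =
        mk D K (D.stN (D.simple i) 1) * D.scGen K s (η * b) * (mk D K (D.stN (D.simple i) 1))⁻¹ := by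
      rw [h, ← mul_assoc, hη2, one_mul]
    rw [← h' c, ← hc, ← e1, e2]
    group

include hD in
/-- **The rank one relation in the group presented by (R1), (R2)**, all roots. -/
theorem stN_conj {r : ℕ} (hr : r < D.nroots) {a : K} (ha : a ≠ 0) (b : K) :
    mk D K (D.stN r a) * D.scGen K r b * (mk D K (D.stN r a))⁻¹ = D.scGen K (D.neg r) (-(a⁻¹ ^ 2 * b)) := by
  obtain ⟨c, hc⟩ := exists_conj hD hr a ha b
  have h := congrArg (thetaGL hD K) hc
  rw [map_mul, map_mul, map_inv, thetaGL_stN, thetaGL_scGen, thetaGL_scGen, nG_conj_xG hD hr ha] at h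
  rw [hc, xG_injective hD (Reach.neg_lt hD hr) h]

theorem w_eq (r : ℕ) (a : K) :
    Cfsg.Agent.H65.RankOne.w (D.scGen K r) (D.scGen K (D.neg r)) a = mk D K (D.stN r a) := by
  rw [mk_stN]; rfl

include hD in
/-- The rank one system of a root. -/
theorem rk {r : ℕ} (hr : r < D.nroots) : Rk (D.scGen K r) (D.scGen K (D.neg r)) where
  addx a b := (scGen_add' r a b).symm
  addy a b := (scGen_add' (D.neg r) a b).symm
  hw a ha b := by rw [w_eq, stN_conj hD hr ha]

include hD in
/-- (R3) follows from (R1), (R2) over a finite field. -/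
theorem stH_mul [Finite K] {r : ℕ} (hr : r < D.nroots) {a b : K} (ha : a ≠ 0) (hb : b ≠ 0) :
    mk D K (D.stH r a) * mk D K (D.stH r b) = mk D K (D.stH r (a * b)) := by
  have h := (rk hD hr).h_mul ha hb
  have e : ∀ c : K, Cfsg.Agent.H65.RankOne.h (D.scGen K r) (D.scGen K (D.neg r)) c = mk D K (D.stH r c) := by
    intro c
    rw [mk_stH, ← w_eq, ← w_eq]; rfl
  rwa [e, e, e] at h

end Cfsg.Agent.H134.CoverRankOne
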