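import Cfsg.Agent.ChevalleyStructure.St.Inj

/-!
# Families of root elements in an arbitrary group

`y : ℕ → K → E` a family of elements of a group `E`, additive in the parameter, satisfying the commutator
relations for the roots in a closed set `S` on which a linear functional `f` is positive; `θ : E →* GL` with
`θ (y r t) = x_r(t)`. Then `θ` is injective on `⟨y r t : r ∈ S⟩`.
-/

set_option autoImplicit false

namespace Cfsg.Agent.H134.FamInj

open Cfsg.Lie Cfsg.Agent.ChevalleyStructure.St.Functional Cfsg.Agent.ChevalleyStructure.St.Inj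

universe u v

variable {K : Type u} [Field K] {D : ChevalleyDatum} {E : Type v} [Group E]

/-- The product of a word in a family. -/
def wordF (y : ℕ → K → E) (w : List (ℕ × K)) : E := (w.map fun p => y p.1 p.2).prod

omit [Field K] in
theorem wordF_nil (y : ℕ → K → E) : wordF y [] = 1 := rfl

omit [Field K] in
theorem wordF_cons (y : ℕ → K → E) (p : ℕ × K) (w : List (ℕ × K)) :
    wordF y (p :: w) = y p.1 p.2 * wordF y w := by
  show (List.map _ (p :: w)).prod = _
  rw [List.map_cons, List.prod_cons]; rfl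

omit [Field K] in
theorem wordF_append (y : ℕ → K → E) (w v : List (ℕ × K)) :
    wordF y (w ++ v) = wordF y w * wordF y v := by
  show (List.map _ (w ++ v)).prod = _
  rw [List.map_append, List.prod_append]; rfl

omit [Field K] in
theorem map_wordF {G : Type*} [Group G] (φ : E →* G) (y : ℕ → K → E) (w : List (ℕ × K)) :
    φ (wordF y w) = wordF (fun r t => φ (y r t)) w := by
  show φ ((w.map fun p => y p.1 p.2).prod) = _
  rw [map_list_prod, List.map_map]; rfl

omit [Field K] in
theorem wordF_congr {y y' : ℕ → K → E} {w : List (ℕ × K)} (h : ∀ p ∈ w, y p.1 p.2 = y' p.1 p.2) :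
    wordF y w = wordF y' w := by
  show (w.map fun p => y p.1 p.2).prod = (w.map fun p => y' p.1 p.2).prod
  congr 1
  exact List.map_congr_left h

omit [Field K] in
theorem wordF_mem (y : ℕ → K → E) (H : Subgroup E) {w : List (ℕ × K)} (h : ∀ p ∈ w, y p.1 p.2 ∈ H) :
    wordF y w ∈ H := by
  refine Subgroup.list_prod_mem _ ?_
  intro x hx
  obtain ⟨p, hp, rfl⟩ := List.mem_map.1 hx
  exact h p hp

omit [Field K] in
theorem conj_wordF (h : E) (y : ℕ → K → E) (w : List (ℕ × K)) :
    h * wordF y w * h⁻¹ = wordF (fun r t => h * y r t * h⁻¹) w := by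
  induction w with
  | nil => rw [wordF_nil, wordF_nil, mul_one, mul_inv_cancel]
  | cons p w ih => rw [wordF_cons, wordF_cons, ← ih]; group

/-- The commutator relation (R2) for the pair `(r, s)`, in conjugation form. -/
def Rel2 (D : ChevalleyDatum) (y : ℕ → K → E) (r s : ℕ) : Prop :=
  ∀ t u : K, (y r t)⁻¹ * y s u * y r t = y s u * wordF y (D.commWord K r s t u)

/-- The set `S` of roots is closed under the commutator formula. -/
def Closed (D : ChevalleyDatum) (S : ℕ → Prop) : Prop :=
  ∀ r s, r < D.nroots → s < D.nroots → S r → S s → s ≠ r → ∀ c ∈ D.commTerms r s, S c.1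

/-- The filtration of the group generated by the `y r t`, `r ∈ S`. -/
def UF (D : ChevalleyDatum) (y : ℕ → K → E) (S : ℕ → Prop) (f : ℕ → ℤ) (k : ℤ) : Subgroup E :=
  Subgroup.closure {x | ∃ (r : ℕ) (t : K), r < D.nroots ∧ S r ∧ k ≤ rho D f r ∧ x = y r t}

/-- The group generated by the `y r t` with `r ∈ S`. -/
def WF (D : ChevalleyDatum) (y : ℕ → K → E) (S : ℕ → Prop) : Subgroup E :=
  Subgroup.closure {x | ∃ (r : ℕ) (t : K), r < D.nroots ∧ S r ∧ x = y r t}

omit [Field K] in
theorem mem_UF (y : ℕ → K → E) {S : ℕ → Prop} {f : ℕ → ℤ} {k : ℤ} {r : ℕ} (hr : r < D.nroots) (hS : S r)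
    (hf : k ≤ rho D f r) (t : K) :
    y r t ∈ UF D y S f k := Subgroup.subset_closure ⟨r, t, hr, hS, hf, rfl⟩

omit [Field K] in
theorem mem_WF (y : ℕ → K → E) {S : ℕ → Prop} {r : ℕ} (hr : r < D.nroots) (hS : S r) (t : K) :
    y r t ∈ WF D y S := Subgroup.subset_closure ⟨r, t, hr, hS, rfl⟩

omit [Field K] in
theorem WF_eq_UF (y : ℕ → K → E) {S : ℕ → Prop} {f : ℕ → ℤ} (hpos : ∀ r < D.nroots, S r → 0 < f r) :
    WF D y S = UF D y S f D.nroots := by
  unfold WF UF
  congr 1
  ext x
  constructor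
  · rintro ⟨r, t, hr, hS, rfl⟩
    exact ⟨r, t, hr, hS, (le_rho_iff hr).2 (hpos r hr hS), rfl⟩
  · rintro ⟨r, t, hr, hS, _, rfl⟩
    exact ⟨r, t, hr, hS, rfl⟩

section rels

variable {y : ℕ → K → E} (hadd : ∀ r < D.nroots, ∀ t u : K, y r t * y r u = y r (t + u))

include hadd in
theorem fam_zero {r : ℕ} (hr : r < D.nroots) : y r 0 = 1 := by
  have h := hadd r hr 0 0
  rw [add_zero] at h
  exact mul_eq_left.1 h

include hadd in
theorem fam_inv {r : ℕ} (hr : r < D.nroots) (t : K) : (y r t)⁻¹ = y r (-t) :=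
  inv_eq_of_mul_eq_one_right (by rw [hadd r hr, add_neg_cancel, fam_zero hadd hr])

omit hadd in
/-- `(y r t)⁻¹ y s u = y s u · w` moved: `y s u * y r t = y r t * (y s u * word)`. -/
theorem rel2_mul {r s : ℕ} (h : Rel2 D y r s) (t u : K) :
    y s u * y r t = y r t * (y s u * wordF y (D.commWord K r s t u)) := by
  rw [← h t u]; group

include hadd in
/-- Conjugation step. -/
theorem UF_step (hw : Wf D) {f : ℕ → ℤ} (hf : Fun D f) {S : ℕ → Prop} (hpos : ∀ r < D.nroots, S r → 0 < f r)
    (hcl : Closed D S)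
    (hrel : ∀ r s, r < D.nroots → s < D.nroots → s ≠ r → S r → S s → Rel2 D y r s)
    {k : ℤ} {r : ℕ}
    (hr : r < D.nroots) (hSr : S r) (hrk : rho D f r = k) {g : E} (hg : g ∈ UF D y S f k) :
    ∃ t : K, ∃ z ∈ UF D y S f (k + 1), g = y r t * z := by
  have hfr : 0 < f r := hpos r hr hSr
  have key : ∀ (s : ℕ) (u : K), s < D.nroots → S s → k ≤ rho D f s → ∀ g : E,
      (∃ t : K, ∃ z ∈ UF D y S f (k + 1), g = y r t * z) →
      ∃ t : K, ∃ z ∈ UF D y S f (k + 1), y s u * g = y r t * z := by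
    intro s u hs hSs hks g hg
    obtain ⟨t, z, hz, rfl⟩ := hg
    by_cases hsr : s = r
    · subst hsr
      exact ⟨u + t, z, hz, by rw [← mul_assoc, hadd s hs]⟩
    have hks' : k + 1 ≤ rho D f s := by
      rcases hks.lt_or_eq with h | h
      · exact h
      · exact absurd (rho_inj hs hr (by rw [← h, hrk])) hsr
    have hfs : 0 < f s := hpos s hs hSs
    refine ⟨t, (y s u * wordF y (D.commWord K r s t u)) * z, ?_, ?_⟩
    · refine mul_mem (mul_mem (mem_UF y hs hSs hks' u) ?_) hz
      apply wordF_mem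
      intro p hp
      obtain ⟨c, hc, rfl⟩ := List.mem_map.1 hp
      obtain ⟨h1, h2, h3, h4⟩ := commTerms_spec hw hr hs hc
      refine mem_UF y h1 (hcl r s hr hs hSr hSs hsr c hc) ?_ _
      have hfc := h4 f hf
      have hlt : f s < f c.1 := by
        rw [hfc]
        have e1 : 0 < (c.2.2.1 : ℤ) * f r := mul_pos (by exact_mod_cast h2) hfr
        have e2 : 1 * f s ≤ (c.2.2.2 : ℤ) * f s :=
          mul_le_mul_of_nonneg_right (by exact_mod_cast h3) hfs.le
        omega
      have := rho_lt_of_f_lt hs h1 hlt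
      show k + 1 ≤ rho D f c.1
      omega
    · rw [← mul_assoc, rel2_mul (hrel r s hr hs hsr hSr hSs)]; group
  unfold UF at hg
  induction hg using Subgroup.closure_induction_left with
  | one => exact ⟨0, 1, one_mem _, by rw [fam_zero hadd hr, mul_one]⟩
  | mul_left x hx g _ ih =>
    obtain ⟨s, u, hs, hSs, hks, rfl⟩ := hx
    exact key s u hs hSs hks g ih
  | inv_mul_cancel x hx g _ ih =>
    obtain ⟨s, u, hs, hSs, hks, rfl⟩ := hx
    rw [fam_inv hadd hs]
    exact key s (-u) hs hSs hks g ih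

variable (θ : E →* GL D.Idx K)
  (hθ : ∀ (r : ℕ) (t : K), r < D.nroots → ((θ (y r t) : GL D.Idx K) : Matrix D.Idx D.Idx K) = D.x K r t)

include hadd hθ in
theorem good_theta (hw : Wf D) {f : ℕ → ℤ} (hf : Fun D f) {S : ℕ → Prop} {r : ℕ} (hr : r < D.nroots)
    (hfr : 0 < f r) {g : E} (hg : g ∈ UF D y S f (rho D f r + 1)) :
    Good D f r ((θ g : GL D.Idx K) : Matrix D.Idx D.Idx K) := by
  have key : ∀ (s : ℕ) (u : K), s < D.nroots → rho D f r + 1 ≤ rho D f s → ∀ g : E,
      Good D f r ((θ g : GL D.Idx K) : Matrix D.Idx D.Idx K) →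
      Good D f r ((θ (y s u * g) : GL D.Idx K) : Matrix D.Idx D.Idx K) := by
    intro s u hs hrs g hg
    rw [map_mul, Units.val_mul, hθ s u hs]
    refine good_x_mul hw hf hr hfr hs ?_ (f_le_of_rho_le hr hs (by omega)) u hg
    rintro rfl
    omega
  unfold UF at hg
  induction hg using Subgroup.closure_induction_left with
  | one => rw [map_one, Units.val_one]; exact good_one f r
  | mul_left x hx g _ ih =>
    obtain ⟨s, u, hs, _, hks, rfl⟩ := hx
    exact key s u hs hks g ih
  | inv_mul_cancel x hx g _ ih =>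
    obtain ⟨s, u, hs, _, hks, rfl⟩ := hx
    rw [fam_inv hadd hs]
    exact key s (-u) hs hks g ih

include hadd hθ in
/-- A homomorphism with `θ (y r t) = x_r(t)` is injective on `⟨y r t : r ∈ S⟩`. -/
theorem inj_WF (hw : Wf D)
    (hco : ∀ r < D.nroots, ∃ i : Fin D.rank, (((D.coroot.getD r #[]).getD i.val 0 : ℤ) : K) ≠ 0)
    {f : ℕ → ℤ} (hf : Fun D f) {S : ℕ → Prop} (hpos : ∀ r < D.nroots, S r → 0 < f r) (hcl : Closed D S)
    (hrel : ∀ r s, r < D.nroots → s < D.nroots → s ≠ r → S r → S s → Rel2 D y r s)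
    {g : E} (hg : g ∈ WF D y S) (h1 : θ g = 1) : g = 1 := by
  obtain ⟨B, hB⟩ := Finset.exists_le ((Finset.range D.nroots).image (rho D f))
  have main : ∀ m : ℕ, ∀ k : ℤ, B + 1 ≤ k + m → ∀ g ∈ UF D y S f k, θ g = 1 → g = 1 := by
    intro m
    induction m with
    | zero =>
      intro k hBk g hg _
      have hempty : {x | ∃ (r : ℕ) (t : K), r < D.nroots ∧ S r ∧ k ≤ rho D f r ∧ x = y r t} = ∅ := by
        rw [Set.eq_empty_iff_forall_notMem]
        rintro x ⟨r, t, hr, _, hk, _⟩
        have := hB (rho D f r) (Finset.mem_image_of_mem _ (Finset.mem_range.2 hr))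
        simp only [Nat.cast_zero] at hBk
        omega
      unfold UF at hg
      rw [hempty, Subgroup.closure_empty] at hg
      exact Subgroup.mem_bot.1 hg
    | succ m ih =>
      intro k hBk g hg hg1
      by_cases hex : ∃ r < D.nroots, S r ∧ rho D f r = k
      · obtain ⟨r, hr, hSr, hrk⟩ := hex
        obtain ⟨t, z, hz, rfl⟩ := UF_step hadd hw hf hpos hcl hrel hr hSr hrk hg
        have hgood := good_theta hadd θ hθ hw hf hr (hpos r hr hSr) (by rw [hrk]; exact hz)
        obtain ⟨i, hi⟩ := hco r hr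
        have hent := x_mul_good_apply hw hf hr (hpos r hr hSr) t hgood i
        rw [← hθ r t hr, ← Units.val_mul, ← map_mul, hg1, Units.val_one, Matrix.one_apply_ne (by simp)] at hent
        have ht : t = 0 := by
          rcases mul_eq_zero.1 hent.symm with h | h
          · exact absurd h hi
          · exact h
        subst ht
        rw [fam_zero hadd hr, one_mul] at hg1 ⊢
        exact ih (k + 1) (by push_cast at hBk; omega) z hz hg1
      · have hle : UF D y S f k ≤ UF D y S f (k + 1) := by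
          unfold UF
          apply Subgroup.closure_mono
          rintro x ⟨r, t, hr, hSr, hk, rfl⟩
          refine ⟨r, t, hr, hSr, ?_, rfl⟩
          rcases hk.lt_or_eq with h | h
          · exact h
          · exact absurd ⟨r, hr, hSr, h.symm⟩ hex
        exact ih (k + 1) (by push_cast at hBk; omega) g (hle hg) hg1
  rw [WF_eq_UF y hpos] at hg
  exact main (B + 1 - D.nroots).toNat D.nroots (by omega) g hg h1

include hadd hθ in
/-- Two elements of `⟨y r t : r ∈ S⟩` with the same image are equal. -/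
theorem inj_WF' (hw : Wf D)
    (hco : ∀ r < D.nroots, ∃ i : Fin D.rank, (((D.coroot.getD r #[]).getD i.val 0 : ℤ) : K) ≠ 0)
    {f : ℕ → ℤ} (hf : Fun D f) {S : ℕ → Prop} (hpos : ∀ r < D.nroots, S r → 0 < f r) (hcl : Closed D S)
    (hrel : ∀ r s, r < D.nroots → s < D.nroots → s ≠ r → S r → S s → Rel2 D y r s)
    {g g' : E} (hg : g ∈ WF D y S) (hg' : g' ∈ WF D y S) (h : θ g = θ g') : g = g' := by
  have := inj_WF hadd θ hθ hw hco hf hpos hcl hrel (g := g⁻¹ * g') (mul_mem (inv_mem hg) hg')
    (by rw [map_mul, map_inv, h, inv_mul_cancel])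
  exact (inv_mul_eq_one.1 this)

end rels

end Cfsg.Agent.H134.FamInj
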