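import Cfsg.Agent.H134.LiftStep
import Cfsg.Agent.H134.PairFacts
import Cfsg.Agent.H133.ScCentral

/-!
# Lifts of root elements to a central extension of the group presented by (R1), (R2)

`π : E →* D.SteinbergCover K` surjective with central kernel, `D.SteinbergCover K` perfect. Torus elements give
canonical lifts `yy s u` of the root elements; they are equivariant under all torus elements, additive when the
preimage of the root subgroup is abelian, and satisfy (R2) when there are enough torus elements.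
-/

set_option autoImplicit false

namespace Cfsg.Agent.H134.Lift

open Cfsg.Lie Cfsg.Agent.ChevalleyStructure Cfsg.Agent.ChevalleyStructure.Elts
  Cfsg.Agent.ChevalleyStructure.St.Functional
  Cfsg.Agent.H133.ScRels Cfsg.Agent.H133.ScTheta Cfsg.Agent.H134.FamInj Cfsg.Agent.H134.LiftStep
open Cfsg.Agent.ChevalleyStructure.St.Conj (lin lin_def lin_comb lin_neg Tab)

open scoped commutatorElement

universe u v

/-! ### General facts on central extensions -/

section general

variable {E : Type v} [Group E] {G : Type u} [Group G] {π : E →* G}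

theorem ker_comm (hc : π.ker ≤ Subgroup.center E) {z : E} (hz : z ∈ π.ker) (g : E) : z * g = g * z :=
  (Subgroup.mem_center_iff.1 (hc hz) g).symm

/-- The commutator only depends on the images. -/
theorem comm_congr (hc : π.ker ≤ Subgroup.center E) {p p' q q' : E} (hp : π p = π p') (hq : π q = π q') :
    ⁅p, q⁆ = ⁅p', q'⁆ := by
  have h1 : p * p'⁻¹ ∈ π.ker := by rw [MonoidHom.mem_ker, map_mul, map_inv, hp, mul_inv_cancel]
  have h2 : q * q'⁻¹ ∈ π.ker := by rw [MonoidHom.mem_ker, map_mul, map_inv, hq, mul_inv_cancel]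
  obtain ⟨z, hz, rfl⟩ : ∃ z ∈ π.ker, p = z * p' := ⟨_, h1, by group⟩
  obtain ⟨w, hw, rfl⟩ : ∃ w ∈ π.ker, q = w * q' := ⟨_, h2, by group⟩
  rw [commutatorElement_def, commutatorElement_def, mul_inv_rev, mul_inv_rev]
  have e1 : z * p' * (w * q') * (p'⁻¹ * z⁻¹) * (q'⁻¹ * w⁻¹) = z * (p' * w) * q' * (p'⁻¹ * (z⁻¹ * q'⁻¹)) * w⁻¹ := by
    group
  rw [e1, ← ker_comm hc hw p', ker_comm hc (inv_mem hz) q'⁻¹]
  have e2 : z * (w * p') * q' * (p'⁻¹ * (q'⁻¹ * z⁻¹)) * w⁻¹ = (z * w) * (p' * q' * p'⁻¹ * q'⁻¹) * (z⁻¹ * w⁻¹) := by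
    group
  rw [e2, ker_comm hc (mul_mem hz hw)]
  have e3 : z * w * (z⁻¹ * w⁻¹) = 1 := by
    rw [ker_comm hc hz w]; group
  rw [mul_assoc, e3, mul_one]

theorem exists_mul_of_perfect (hsurj : Function.Surjective π) (hperf : commutator G = ⊤) (g : E) :
    ∃ k ∈ commutator E, ∃ z ∈ π.ker, g = k * z := by
  have h1 : (commutator E).map π = ⊤ := by
    rw [commutator_def, Subgroup.map_commutator, ← MonoidHom.range_eq_map, MonoidHom.range_eq_top.2 hsurj, ← commutator_def, hperf]
  obtain ⟨k, hk, hkg⟩ : π g ∈ (commutator E).map π := by rw [h1]; exact Subgroup.mem_top _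
  exact ⟨k, hk, k⁻¹ * g, by rw [MonoidHom.mem_ker, map_mul, map_inv, hkg, inv_mul_cancel], by group⟩

/-- Elements over the centre are central (perfect base). -/
theorem central_of_map (hsurj : Function.Surjective π) (hc : π.ker ≤ Subgroup.center E) (hperf : commutator G = ⊤)
    {ζ : E} (hζ : π ζ ∈ Subgroup.center G) : ζ ∈ Subgroup.center E := by
  have hk : ∀ g, ⁅ζ, g⁆ ∈ π.ker := by
    intro g
    rw [MonoidHom.mem_ker, map_commutatorElement, commutatorElement_eq_one_iff_mul_comm]
    exact (Subgroup.mem_center_iff.1 hζ (π g)).symm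
  have hmul : ∀ g h : E, ⁅ζ, g * h⁆ = ⁅ζ, g⁆ * ⁅ζ, h⁆ := by
    intro g h
    have e : ⁅ζ, g * h⁆ = ⁅ζ, g⁆ * (g * ⁅ζ, h⁆ * g⁻¹) := by
      simp only [commutatorElement_def]; group
    rw [e, ← ker_comm hc (hk h) g, mul_inv_cancel_right]
  have hone : ⁅ζ, (1 : E)⁆ = 1 := by simp [commutatorElement_def]
  let φ : E →* π.ker :=
    { toFun := fun g => ⟨⁅ζ, g⁆, hk g⟩
      map_one' := Subtype.ext hone
      map_mul' := fun g h => Subtype.ext (hmul g h) }
  have hφ : commutator E ≤ φ.ker := by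
    rw [commutator_def, Subgroup.commutator_le]
    intro g _ h _
    rw [MonoidHom.mem_ker, map_commutatorElement, commutatorElement_eq_one_iff_mul_comm]
    exact Subtype.ext (ker_comm hc (φ g).2 (φ h : E))
  rw [Subgroup.mem_center_iff]
  intro g
  obtain ⟨k, hk', z, hz, rfl⟩ := exists_mul_of_perfect hsurj hperf g
  have h1 : ⁅ζ, k⁆ = 1 := congrArg Subtype.val (MonoidHom.mem_ker.1 (hφ hk'))
  have h2 : ζ * k = k * ζ := commutatorElement_eq_one_iff_mul_comm.1 h1
  rw [mul_assoc, ker_comm hc hz ζ, ← mul_assoc, ← h2, mul_assoc]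

/-- Bilinearity of the commutator of lifts of commuting elements. -/
theorem comm_mul_right (hc : π.ker ≤ Subgroup.center E) {p q q' : E} (h : ⁅p, q'⁆ ∈ π.ker) :
    ⁅p, q * q'⁆ = ⁅p, q⁆ * ⁅p, q'⁆ := by
  have e : ⁅p, q * q'⁆ = ⁅p, q⁆ * (q * ⁅p, q'⁆ * q⁻¹) := by
    simp only [commutatorElement_def]; group
  rw [e, ← ker_comm hc h q, mul_inv_cancel_right]

theorem comm_mul_left (hc : π.ker ≤ Subgroup.center E) {p p' q : E} (h : ⁅p', q⁆ ∈ π.ker) :
    ⁅p * p', q⁆ = ⁅p, q⁆ * ⁅p', q⁆ := by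
  have e : ⁅p * p', q⁆ = (p * ⁅p', q⁆ * p⁻¹) * ⁅p, q⁆ := by
    simp only [commutatorElement_def]; group
  rw [e, ← ker_comm hc h p, mul_inv_cancel_right, ker_comm hc h]

end general

/-! ### Torus elements -/

section torus

variable {K : Type u} [Field K] {D : ChevalleyDatum}

/-- `h` acts on the root elements of `D.SteinbergCover K` by the scalars `a`. -/
structure Act (h : D.SteinbergCover K) (a : ℕ → K) : Prop where
  ne : ∀ s < D.nroots, a s ≠ 0
  act : ∀ s < D.nroots, ∀ u : K, h * D.scGen K s u * h⁻¹ = D.scGen K s (a s * u)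

theorem Act.mul {h h' : D.SteinbergCover K} {a a' : ℕ → K} (H : Act h a) (H' : Act h' a') :
    Act (h * h') (fun s => a s * a' s) where
  ne s hs := mul_ne_zero (H.ne s hs) (H'.ne s hs)
  act s hs u := by
    have e : h * h' * D.scGen K s u * (h * h')⁻¹ = h * (h' * D.scGen K s u * h'⁻¹) * h⁻¹ := by group
    rw [e, H'.act s hs, H.act s hs, mul_assoc]

theorem Act.inv {h : D.SteinbergCover K} {a : ℕ → K} (H : Act h a) : Act h⁻¹ (fun s => (a s)⁻¹) where
  ne s hs := inv_ne_zero (H.ne s hs)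
  act s hs u := by
    have e := H.act s hs ((a s)⁻¹ * u)
    rw [mul_inv_cancel_left₀ (H.ne s hs)] at e
    rw [← e]; group

theorem Act.one : Act (1 : D.SteinbergCover K) (fun _ => 1) where
  ne _ _ := one_ne_zero
  act s _ u := by rw [one_mul, one_mul, inv_one, mul_one]

/-- Elements acting trivially are central. -/
theorem Act.central {h : D.SteinbergCover K} {a : ℕ → K} (H : Act h a) (ha : ∀ s < D.nroots, a s = 1) :
    h ∈ Subgroup.center (D.SteinbergCover K) := by
  rw [Subgroup.mem_center_iff]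
  have hcent : ∀ x : D.SteinbergCover K, x ∈ Subgroup.centralizer {h} := by
    apply mem_of_gens
    intro s hs t
    rw [Subgroup.mem_centralizer_singleton_iff]
    have h1 := H.act s hs t
    rw [ha s hs, one_mul, mul_inv_eq_iff_eq_mul] at h1
    exact h1.symm
  intro x
  exact Subgroup.mem_centralizer_singleton_iff.1 (hcent x)

/-- Torus elements commute modulo the centre. -/
theorem Act.comm_central {h h' : D.SteinbergCover K} {a a' : ℕ → K} (H : Act h a) (H' : Act h' a') :
    (h' * h * h'⁻¹) * h⁻¹ ∈ Subgroup.center (D.SteinbergCover K) := by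
  refine (((H'.mul H).mul H'.inv).mul H.inv).central fun s hs => ?_
  have h1 := H.ne s hs
  have h2 := H'.ne s hs
  field_simp

/-- The torus elements attached to functionals. -/
theorem exists_act (hD : InList D) (m : ℕ → ℤ) {c : K} (hc : c ≠ 0) :
    ∃ h : D.SteinbergCover K, Act h (fun s => c ^ lin D m s) := by
  have key : ∀ n ≤ D.rank, ∃ h : D.SteinbergCover K,
      Act h (fun s => c ^ (∑ i ∈ Finset.range n, m i * D.cartan i s)) := by
    intro n
    induction n with
    | zero =>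
      intro _
      refine ⟨1, ?_⟩
      have : (fun s => c ^ (∑ i ∈ Finset.range 0, m i * D.cartan i s)) = fun _ => (1 : K) := by
        funext s; simp
      rw [this]
      exact Act.one
    | succ n ih =>
      intro hn
      obtain ⟨h, H⟩ := ih (by omega)
      have H2 : Act (mk D K (D.stH (D.simple n) (c ^ m n))) (fun s => (c ^ m n) ^ (D.cartan n s)) :=
        ⟨fun s _ => zpow_ne_zero _ (zpow_ne_zero _ hc), fun s hs u => by
          rw [Cfsg.Agent.H133.ScCentral.h_conj hD n s (by omega) hs _ (zpow_ne_zero _ hc), mul_inv_cancel_right]⟩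
      refine ⟨h * mk D K (D.stH (D.simple n) (c ^ m n)), ?_⟩
      · have := H.mul H2
        have e : (fun s => c ^ (∑ i ∈ Finset.range (n + 1), m i * D.cartan i s)) =
            fun s => c ^ (∑ i ∈ Finset.range n, m i * D.cartan i s) * (c ^ m n) ^ (D.cartan n s) := by
          funext s
          rw [Finset.sum_range_succ, zpow_add₀ hc, zpow_mul]
        rw [e]
        exact this
  exact key D.rank le_rfl

end torus

/-! ### The canonical lifts -/

section lifts

variable {K : Type u} [Field K] {D : ChevalleyDatum} {E : Type v} [Group E]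
  {π : E →* D.SteinbergCover K} (hsurj : Function.Surjective π) (hc : π.ker ≤ Subgroup.center E)
  (hperf : commutator (D.SteinbergCover K) = ⊤)

/-- The preimage of the root subgroup of `s` is abelian. -/
def Ab (D : ChevalleyDatum) (π : E →* D.SteinbergCover K) (s : ℕ) : Prop :=
  ∀ p q : E, ∀ t u : K, π p = D.scGen K s t → π q = D.scGen K s u → p * q = q * p

include hsurj hc in
/-- Lifts of commuting root elements commute, if there is a torus element fixing one and not the other. -/
theorem commute_of_act {r s : ℕ} (hr : r < D.nroots) (hs : s < D.nroots)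
    (hcomm : ∀ t u : K, D.scGen K r t * D.scGen K s u = D.scGen K s u * D.scGen K r t)
    {h : D.SteinbergCover K} {a : ℕ → K} (H : Act h a) (har : a r = 1) (has : a s ≠ 1)
    {p q : E} {t u : K} (hp : π p = D.scGen K r t) (hq : π q = D.scGen K s u) : p * q = q * p := by
  -- the commutator as a function of the parameters
  obtain ⟨l, hl⟩ := hsurj.hasRightInverse
  have hk : ∀ v, ⁅p, l (D.scGen K s v)⁆ ∈ π.ker := by
    intro v
    rw [MonoidHom.mem_ker, map_commutatorElement, hp, hl, commutatorElement_eq_one_iff_mul_comm]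
    exact hcomm t v
  have hadd : ∀ v w, ⁅p, l (D.scGen K s (v + w))⁆ = ⁅p, l (D.scGen K s v)⁆ * ⁅p, l (D.scGen K s w)⁆ := by
    intro v w
    rw [← comm_mul_right hc (hk w)]
    apply comm_congr hc rfl
    rw [map_mul, hl, hl, hl, scGen_add']
  have hinv : ∀ v, ⁅p, l (D.scGen K s (a s * v))⁆ = ⁅p, l (D.scGen K s v)⁆ := by
    intro v
    have h1 : l h * ⁅p, l (D.scGen K s v)⁆ * (l h)⁻¹ = ⁅p, l (D.scGen K s v)⁆ := by
      rw [← ker_comm hc (hk v) (l h), mul_inv_cancel_right]
    rw [← h1]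
    have h2 : l h * ⁅p, l (D.scGen K s v)⁆ * (l h)⁻¹ = ⁅l h * p * (l h)⁻¹, l h * l (D.scGen K s v) * (l h)⁻¹⁆ := by
      simp only [commutatorElement_def]; group
    rw [h2]
    apply comm_congr hc
    · rw [map_mul, map_mul, map_inv, hl, hp, H.act r hr, har, one_mul]
    · rw [map_mul, map_mul, map_inv, hl, hl, hl, H.act s hs]
  have h3 : ⁅p, l (D.scGen K s u)⁆ = 1 := by
    have h4 := hadd ((a s - 1) * (u / (a s - 1))) (u / (a s - 1))
    have h5 : (a s - 1) * (u / (a s - 1)) + u / (a s - 1) = a s * (u / (a s - 1)) := by ring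
    rw [h5, hinv, mul_div_cancel₀ _ (sub_ne_zero.2 has)] at h4
    exact right_eq_mul.1 h4
  have h6 : ⁅p, q⁆ = 1 := by
    rw [← h3]
    exact comm_congr hc rfl (by rw [hq, hl])
  exact commutatorElement_eq_one_iff_mul_comm.1 h6

include hsurj hc in
/-- The preimage of a root subgroup is abelian: scalars `c`, `1 - c`. -/
theorem ab_of_scalars {s : ℕ} (hs : s < D.nroots)
    (hact : ∀ c : K, c ≠ 0 → ∃ (h : D.SteinbergCover K) (a : ℕ → K), Act h a ∧ a s = c)
    (hc1 : ∃ c : K, c ≠ 0 ∧ 1 - c ≠ 0 ∧ c * (1 - c) ≠ 1) : Ab D π s := by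
  intro p q t u hp hq
  obtain ⟨l, hl⟩ := hsurj.hasRightInverse
  set F : K → K → E := fun v w => ⁅l (D.scGen K s v), l (D.scGen K s w)⁆ with hF
  have hk : ∀ v w, F v w ∈ π.ker := by
    intro v w
    simp only [hF]
    rw [MonoidHom.mem_ker, map_commutatorElement, hl, hl, commutatorElement_eq_one_iff_mul_comm, scGen_add',
      scGen_add', add_comm]
  have haddr : ∀ v w w', F v (w + w') = F v w * F v w' := by
    intro v w w'
    have := comm_mul_right hc (p := l (D.scGen K s v)) (q := l (D.scGen K s w)) (hk v w')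
    simp only [hF]
    rw [← this]
    apply comm_congr hc rfl
    rw [map_mul, hl, hl, hl, scGen_add']
  have haddl : ∀ v v' w, F (v + v') w = F v w * F v' w := by
    intro v v' w
    have := comm_mul_left hc (p := l (D.scGen K s v)) (q := l (D.scGen K s w)) (hk v' w)
    simp only [hF]
    rw [← this]
    refine comm_congr hc ?_ rfl
    rw [map_mul, hl, hl, hl, scGen_add']
  have hinv : ∀ c, c ≠ 0 → ∀ v w, F (c * v) (c * w) = F v w := by
    intro c hc0 v w
    obtain ⟨h, a, H, has⟩ := hact c hc0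
    have h1 : l h * F v w * (l h)⁻¹ = F v w := by
      rw [← ker_comm hc (hk v w) (l h), mul_inv_cancel_right]
    rw [← h1]
    have h2 : l h * F v w * (l h)⁻¹ = ⁅l h * l (D.scGen K s v) * (l h)⁻¹, l h * l (D.scGen K s w) * (l h)⁻¹⁆ := by
      simp only [hF, commutatorElement_def]; group
    rw [h2]
    apply comm_congr hc
    · rw [map_mul, map_mul, map_inv, hl, hl, hl, H.act s hs, has]
    · rw [map_mul, map_mul, map_inv, hl, hl, hl, H.act s hs, has]
  obtain ⟨c, hc0, hc1, hc2⟩ := hc1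
  have h1 : ∀ v w, F v w = F v ((c⁻¹ + (1 - c)⁻¹) * w) := by
    intro v w
    have e1 : F v w = F (c * v) w * F ((1 - c) * v) w := by
      rw [← haddl]; congr 1; ring
    have e2 : F (c * v) w = F v (c⁻¹ * w) := by
      rw [← hinv c hc0 v (c⁻¹ * w), mul_inv_cancel_left₀ hc0]
    have e3 : F ((1 - c) * v) w = F v ((1 - c)⁻¹ * w) := by
      rw [← hinv (1 - c) hc1 v ((1 - c)⁻¹ * w), mul_inv_cancel_left₀ hc1]
    rw [e1, e2, e3, ← haddr]
    congr 1; ring
  have h2 : ∀ v w, F v w = 1 := by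
    intro v w
    have hne : c⁻¹ + (1 - c)⁻¹ - 1 ≠ 0 := by
      intro h
      apply hc2
      field_simp at h
      linear_combination -h
    have e := h1 v (w / (c⁻¹ + (1 - c)⁻¹ - 1))
    have e2 : (c⁻¹ + (1 - c)⁻¹) * (w / (c⁻¹ + (1 - c)⁻¹ - 1)) = w + w / (c⁻¹ + (1 - c)⁻¹ - 1) := by
      have : (c⁻¹ + (1 - c)⁻¹) * (w / (c⁻¹ + (1 - c)⁻¹ - 1)) =
          (c⁻¹ + (1 - c)⁻¹ - 1) * (w / (c⁻¹ + (1 - c)⁻¹ - 1)) + w / (c⁻¹ + (1 - c)⁻¹ - 1) := by ring
      rw [this, mul_div_cancel₀ _ hne]
    rw [e2, haddr] at e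
    exact right_eq_mul.1 e
  have h6 : ⁅p, q⁆ = 1 := by
    rw [← h2 t u]
    exact comm_congr hc (by rw [hp, hl]) (by rw [hq, hl])
  exact commutatorElement_eq_one_iff_mul_comm.1 h6

include hsurj hc in
/-- The preimage of a root subgroup is abelian: generation by other root subgroups commuting with it. -/
theorem ab_of_closure {s : ℕ} {Q : Set ℕ}
    (hgen : ∀ u : K, D.scGen K s u ∈ Subgroup.closure {x | ∃ q ∈ Q, ∃ v : K, x = D.scGen K q v})
    (hQ : ∀ q ∈ Q, ∀ p p' : E, ∀ t v : K, π p = D.scGen K s t → π p' = D.scGen K q v → p * p' = p' * p) :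
    Ab D π s := by
  intro p q t u hp hq
  have h1 : ∀ x ∈ Subgroup.closure {x | ∃ q ∈ Q, ∃ v : K, x = D.scGen K q v}, ∀ q : E, π q = x → p * q = q * p := by
    intro x hx
    induction hx using Subgroup.closure_induction with
    | one =>
      intro q hq
      exact (ker_comm hc (MonoidHom.mem_ker.2 hq) p).symm
    | mem x hx =>
      obtain ⟨q', hq', v, rfl⟩ := hx
      intro q hq
      exact hQ q' hq' p q t v hp hq
    | mul x y _ _ ihx ihy =>
      intro q hq
      obtain ⟨q₁, hq₁⟩ := hsurj x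
      have h2 := ihx q₁ hq₁
      have h3 := ihy (q₁⁻¹ * q) (by rw [map_mul, map_inv, hq₁, hq, inv_mul_cancel_left])
      calc p * q = (p * q₁) * (q₁⁻¹ * q) := by group
        _ = q₁ * (p * (q₁⁻¹ * q)) := by rw [h2, mul_assoc]
        _ = q * p := by rw [h3]; group
    | inv x _ ih =>
      intro q hq
      have h2 := ih q⁻¹ (by rw [map_inv, hq, inv_inv])
      calc p * q = q * (q⁻¹ * p) * q := by group
        _ = q * p := by rw [← h2]; group
  exact h1 _ (hgen u) q hq

/-- The canonical lifts. -/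
noncomputable def yy (hsurj : Function.Surjective π) (H : ℕ → D.SteinbergCover K) (A : ℕ → ℕ → K) (s : ℕ) (u : K) : E :=
  ⁅Function.surjInv hsurj (H s), Function.surjInv hsurj (D.scGen K s (u / (A s s - 1)))⁆

variable (H : ℕ → D.SteinbergCover K) (A : ℕ → ℕ → K) (hA : ∀ s < D.nroots, Act (H s) (A s) ∧ A s s ≠ 1)

include hA in
theorem map_yy {s : ℕ} (hs : s < D.nroots) (u : K) : π (yy hsurj H A s u) = D.scGen K s u := by
  unfold yy
  rw [map_commutatorElement, Function.surjInv_eq hsurj, Function.surjInv_eq hsurj, commutatorElement_def,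
    (hA s hs).1.act s hs, scGen_inv, scGen_add']
  congr 1
  have h := sub_ne_zero.2 (hA s hs).2
  field_simp
  ring

include hA hc hperf in
/-- Equivariance under torus elements. -/
theorem conj_yy {s : ℕ} (hs : s < D.nroots) (u : K) {g : E} {b : ℕ → K} (hg : Act (π g) b) :
    g * yy hsurj H A s u * g⁻¹ = yy hsurj H A s (b s * u) := by
  unfold yy
  have h2 : ∀ p q : E, g * ⁅p, q⁆ * g⁻¹ = ⁅g * p * g⁻¹, g * q * g⁻¹⁆ := by
    intro p q
    simp only [commutatorElement_def]; group
  rw [h2]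
  have hπ : ∀ δ, π (Function.surjInv hsurj δ) = δ := Function.surjInv_eq hsurj
  set p := Function.surjInv hsurj (H s) with hp
  set ζ := g * p * g⁻¹ * p⁻¹ with hζ
  have hζc : ζ ∈ Subgroup.center E := by
    apply central_of_map hsurj hc hperf
    rw [hζ, map_mul, map_mul, map_mul, map_inv, map_inv, hp, hπ]
    exact (hA s hs).1.comm_central hg
  have h3 : g * p * g⁻¹ = ζ * p := by rw [hζ]; group
  rw [h3]
  have h4 : ∀ q : E, ⁅ζ * p, q⁆ = ⁅p, q⁆ := by
    intro q
    have hz := Subgroup.mem_center_iff.1 hζc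
    rw [commutatorElement_def, commutatorElement_def, mul_inv_rev]
    have : ζ * p * q * (p⁻¹ * ζ⁻¹) * q⁻¹ = ζ * (p * q * p⁻¹) * ζ⁻¹ * q⁻¹ := by group
    rw [this, ← hz]; group
  rw [h4]
  apply comm_congr hc rfl
  rw [map_mul, map_mul, map_inv, hπ, hπ, hg.act s hs, mul_div_assoc]

include hA hc in
/-- Additivity. -/
theorem yy_add {s : ℕ} (hs : s < D.nroots) (hab : Ab D π s) (t u : K) :
    yy hsurj H A s t * yy hsurj H A s u = yy hsurj H A s (t + u) := by
  have hπ : ∀ δ, π (Function.surjInv hsurj δ) = δ := Function.surjInv_eq hsurj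
  have hmap := map_yy hsurj H A hA hs u
  unfold yy at hmap ⊢
  set p := Function.surjInv hsurj (H s) with hp
  set q := Function.surjInv hsurj (D.scGen K s (t / (A s s - 1))) with hq
  set q' := Function.surjInv hsurj (D.scGen K s (u / (A s s - 1))) with hq'
  have h1 : q * ⁅p, q'⁆ = ⁅p, q'⁆ * q := hab q ⁅p, q'⁆ _ _ (hπ _) hmap
  have h2 : ⁅p, q * q'⁆ = ⁅p, q⁆ * ⁅p, q'⁆ := by
    have e : ⁅p, q * q'⁆ = ⁅p, q⁆ * (q * ⁅p, q'⁆ * q⁻¹) := by
      simp only [commutatorElement_def]; group
    rw [e, h1, mul_inv_cancel_right]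
  rw [← h2]
  apply comm_congr hc rfl
  rw [map_mul, hπ, hπ, hπ, scGen_add']
  congr 1
  ring

end lifts

end Cfsg.Agent.H134.Lift
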