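import Cfsg.Agent.H134.Lift

/-!
# Splitting of central extensions of the group presented by (R1), (R2)

`exists_section`: a family of lifts of the root elements that is additive and has "good" pairs gives a splitting.
`exists_section_of_act`: enough torus elements give a splitting. `lift_unique`: the universal lifting property.
-/

set_option autoImplicit false

namespace Cfsg.Agent.H134.LiftMain

open Cfsg.Lie Cfsg.Agent.ChevalleyStructure Cfsg.Agent.ChevalleyStructure.Elts
  Cfsg.Agent.ChevalleyStructure.St.Functional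
  Cfsg.Agent.H133.ScRels Cfsg.Agent.H133.ScTheta Cfsg.Agent.H134.FamInj Cfsg.Agent.H134.LiftStep
  Cfsg.Agent.H134.Lift
open Cfsg.Agent.ChevalleyStructure.St.Conj (lin lin_def lin_comb lin_neg Tab)

universe u v w

variable {K : Type u} [Field K] {D : ChevalleyDatum} {E : Type v} [Group E]
  {π : E →* D.SteinbergCover K} {y : ℕ → K → E}

theorem wordF_scGen (w : List (ℕ × K)) : wordF (D.scGen K) w = word D K w := rfl

/-- The set-up for `D.SteinbergCover K`. -/
theorem setup (hD : InList D) (hc : π.ker ≤ Subgroup.center E)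
    (hy : ∀ (r : ℕ) (t : K), r < D.nroots → π (y r t) = D.scGen K r t)
    (hadd : ∀ r < D.nroots, ∀ t u : K, y r t * y r u = y r (t + u)) :
    Setup D π (D.scGen K) (thetaGL hD K) y := by
  obtain ⟨m0, T⟩ := St.TabAll.exists_tab hD
  exact {
    wf := T.toWf
    coroot := fun r hr => T.coroot_ne hr
    central := hc
    rel := fun r s hr hs hsr hsn t u => by
      rw [wordF_scGen]; exact scGen_conj hr hs hsr hsn t u
    theta := fun r t _ => by rw [thetaGL_scGen, coe_xG]
    lift := hy
    add := hadd }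

/-- All commutator relations, from the torus elements. -/
theorem rel2_all (hD : InList D) (L : Setup D π (D.scGen K) (thetaGL hD K) y)
    (hgood : ∀ r s, r < D.nroots → s < D.nroots → s ≠ r → s ≠ D.neg r → TorGood D y r s ∨ PGood K π) :
    ∀ r s, r < D.nroots → s < D.nroots → s ≠ r → s ≠ D.neg r → Rel2 D y r s := by
  intro r₀ s₀ hr₀ hs₀ h₁ h₂
  obtain ⟨m0, T⟩ := St.TabAll.exists_tab hD
  obtain ⟨m, hmr, hms⟩ := PairFacts.exists_pos hD hr₀ hs₀ h₁ h₂
  set f := lin D m with hfdef
  have hf : Fun D f := T.fun_lin m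
  obtain ⟨B, hB⟩ := Finset.exists_le ((Finset.range D.nroots).image f)
  have hB' : ∀ q < D.nroots, f q ≤ B := fun q hq => hB _ (Finset.mem_image_of_mem _ (Finset.mem_range.2 hq))
  have main : ∀ k : ℕ, ∀ n : ℤ, 2 * B + 1 ≤ n + k → ∀ r s, r < D.nroots → s < D.nroots → s ≠ r →
      0 < f r → 0 < f s → n ≤ f r + f s → Rel2 D y r s := by
    intro k
    induction k with
    | zero =>
      intro n hn r s hr hs _ _ _ h
      have := hB' r hr
      have := hB' s hs
      simp only [Nat.cast_zero] at hn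
      omega
    | succ k ih =>
      intro n hn r s hr hs hsr hfr hfs h
      by_cases hlt : n + 1 ≤ f r + f s
      · exact ih (n + 1) (by push_cast at hn; omega) r s hr hs hsr hfr hfs hlt
      have heq : f r + f s = n := by omega
      have hrel : ∀ a b, a < D.nroots → b < D.nroots → b ≠ a → 0 < f a → 0 < f b → n < f a + f b → Rel2 D y a b :=
        fun a b ha hb hba hfa hfb hab => ih (n + 1) (by push_cast at hn; omega) a b ha hb hba hfa hfb (by omega)
      have hsn : s ≠ D.neg r := by
        intro e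
        rw [e, hf.neg r hr] at hfs
        omega
      -- the closed set
      have hterm : ∀ a b, a < D.nroots → b < D.nroots → 0 < f a → 0 < f b → n ≤ f a + f b →
          ∀ c ∈ D.commTerms a b, n ≤ f c.1 := by
        intro a b ha hb hfa hfb hab c hcm
        obtain ⟨h1, h2, h3, h4⟩ := commTerms_spec L.wf ha hb hcm
        rw [h4 f hf]
        have e1 : 1 * f a ≤ (c.2.2.1 : ℤ) * f a := mul_le_mul_of_nonneg_right (by exact_mod_cast h2) hfa.le
        have e2 : 1 * f b ≤ (c.2.2.2 : ℤ) * f b := mul_le_mul_of_nonneg_right (by exact_mod_cast h3) hfb.le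
        omega
      refine L.rel2_step hf (S := fun q => n ≤ f q) ?_ ?_ ?_ hr hs hsr hsn ?_ ?_ ?_ (hgood r s hr hs hsr hsn)
      · intro q _ hq
        have : n ≤ f q := hq
        omega
      · intro a b ha hb hSa hSb hba c hcm
        have h1 : n ≤ f a := hSa
        have h2 : n ≤ f b := hSb
        exact hterm a b ha hb (by omega) (by omega) (by omega) c hcm
      · intro a b ha hb hba hSa hSb
        have h1 : n ≤ f a := hSa
        have h2 : n ≤ f b := hSb
        exact hrel a b ha hb hba (by omega) (by omega) (by omega)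
      · intro c hcm
        exact hterm r s hr hs hfr hfs h c hcm
      · intro q hq hSq c hcm
        have h1 : n ≤ f q := hSq
        exact hterm s q hs hq hfs (by omega) (by omega) c hcm
      · intro q hq hSq
        have h1 : n ≤ f q := hSq
        refine hrel s q hs hq ?_ hfs (by omega) (by omega)
        rintro rfl
        omega
  exact main (2 * B + 1 - (f r₀ + f s₀)).toNat (f r₀ + f s₀) (by omega) r₀ s₀ hr₀ hs₀ h₁ hmr hms le_rfl

/-- A family satisfying (R1), (R2) gives a homomorphism. -/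
theorem exists_hom (hw : Wf D) (hadd : ∀ r < D.nroots, ∀ t u : K, y r t * y r u = y r (t + u))
    (hrel : ∀ r s, r < D.nroots → s < D.nroots → s ≠ r → s ≠ D.neg r → Rel2 D y r s) :
    ∃ τ : D.SteinbergCover K →* E, ∀ r t, r < D.nroots → τ (D.scGen K r t) = y r t := by
  let gen : Fin D.nroots × K → E := fun p => y p.1 p.2
  have hX : ∀ r t, r < D.nroots → FreeGroup.lift gen (D.stX r t) = y r t := by
    intro r t hr
    rw [stX_of_lt hr, FreeGroup.lift_apply_of]
  have hW : ∀ w : List (ℕ × K), (∀ p ∈ w, p.1 < D.nroots) → FreeGroup.lift gen (D.stWord w) = wordF y w := by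
    intro w hw
    show FreeGroup.lift gen ((w.map fun p => D.stX p.1 p.2).prod) = (w.map fun p => y p.1 p.2).prod
    rw [map_list_prod, List.map_map]
    congr 1
    exact List.map_congr_left fun p hp => hX p.1 p.2 (hw p hp)
  have hrels : ∀ g ∈ D.steinbergRelsAB K, FreeGroup.lift gen g = 1 := by
    rintro g (⟨r, t₁, t₂, hr, rfl⟩ | ⟨r, s, t, u, hr, hs, hsr, hsn, rfl⟩)
    · rw [map_mul, map_mul, map_inv, hX r _ hr, hX r _ hr, hX r _ hr, hadd r hr, mul_inv_cancel]
    · rw [map_mul, map_mul, map_mul, map_mul, map_inv, map_inv, map_inv, hX s _ hs, hX r _ hr, hW]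
      · have h := hrel r s hr hs hsr hsn t u
        have h2 : (y s u)⁻¹ * (y r t)⁻¹ * y s u * y r t = wordF y (D.commWord K r s t u) := by
          calc (y s u)⁻¹ * (y r t)⁻¹ * y s u * y r t = (y s u)⁻¹ * ((y r t)⁻¹ * y s u * y r t) := by group
            _ = wordF y (D.commWord K r s t u) := by rw [h]; group
        rw [h2, mul_inv_cancel]
      · intro p hp
        obtain ⟨c, hcm, rfl⟩ := List.mem_map.1 hp
        exact (commTerms_spec hw hr hs hcm).1
  refine ⟨PresentedGroup.toGroup hrels, fun r t hr => ?_⟩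
  rw [scGen_of_lt hr, PresentedGroup.toGroup.of]

/-- A good family of lifts gives a splitting. -/
theorem exists_section (hD : InList D)
    (hy : ∀ (r : ℕ) (t : K), r < D.nroots → π (y r t) = D.scGen K r t)
    (hadd : ∀ r < D.nroots, ∀ t u : K, y r t * y r u = y r (t + u))
    (hrel : ∀ r s, r < D.nroots → s < D.nroots → s ≠ r → s ≠ D.neg r → Rel2 D y r s) :
    ∃ τ : D.SteinbergCover K →* E, π.comp τ = MonoidHom.id _ := by
  obtain ⟨m0, T⟩ := St.TabAll.exists_tab hD
  obtain ⟨τ, hτ⟩ := exists_hom T.toWf hadd hrel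
  refine ⟨τ, ?_⟩
  apply PresentedGroup.ext
  rintro ⟨⟨r, hr⟩, t⟩
  show π (τ (PresentedGroup.of (⟨r, hr⟩, t))) = PresentedGroup.of (⟨r, hr⟩, t)
  rw [← scGen_of_lt hr, hτ r t hr, hy r t hr]

/-- Enough torus elements give a splitting. -/
theorem exists_section_of_act (hD : InList D) (hsurj : Function.Surjective π) (hc : π.ker ≤ Subgroup.center E)
    (hperf : commutator (D.SteinbergCover K) = ⊤)
    (h1 : ∀ s < D.nroots, ∃ (h : D.SteinbergCover K) (a : ℕ → K), Act h a ∧ a s ≠ 1)
    (hab : ∀ s < D.nroots, Ab D π s)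
    (h2 : ∀ r s, r < D.nroots → s < D.nroots → s ≠ r → s ≠ D.neg r →
      ∃ (h : D.SteinbergCover K) (a : ℕ → K), Act h a ∧ a r = 1 ∧ a s ≠ 1) :
    ∃ τ : D.SteinbergCover K →* E, π.comp τ = MonoidHom.id _ := by
  classical
  let H : ℕ → D.SteinbergCover K := fun s => if h : s < D.nroots then (h1 s h).choose else 1
  let A : ℕ → ℕ → K := fun s => if h : s < D.nroots then (h1 s h).choose_spec.choose else 1
  have hA : ∀ s < D.nroots, Act (H s) (A s) ∧ A s s ≠ 1 := by
    intro s hs
    have := (h1 s hs).choose_spec.choose_spec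
    simp only [H, A, dif_pos hs]
    exact this
  have hy : ∀ (r : ℕ) (t : K), r < D.nroots → π (yy hsurj H A r t) = D.scGen K r t :=
    fun r t hr => map_yy hsurj H A hA hr t
  have hadd : ∀ r < D.nroots, ∀ t u : K, yy hsurj H A r t * yy hsurj H A r u = yy hsurj H A r (t + u) :=
    fun r hr t u => yy_add hsurj hc H A hA hr (hab r hr) t u
  refine exists_section hD hy hadd (rel2_all hD (setup hD hc hy hadd) ?_)
  intro r s hr hs hsr hsn
  left
  obtain ⟨h, a, H', har, has⟩ := h2 r s hr hs hsr hsn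
  obtain ⟨g, rfl⟩ := hsurj h
  exact ⟨g, a, fun q hq u => conj_yy hsurj hc hperf H A hA hq u H', har, has⟩

/-- Universality from the splitting of central extensions. -/
theorem lift_unique {Δ : Type u} [Group Δ] (hperf : commutator Δ = ⊤)
    {G₁ : Type w} [Group G₁] (π₁ : E →* G₁) (hπ : Function.Surjective π₁) (hc : π₁.ker ≤ Subgroup.center E)
    (σ : Δ →* G₁)
    (hsplit : ∀ (P : Type (max u v)) [Group P] (π : P →* Δ), Function.Surjective π → π.ker ≤ Subgroup.center P →
      (∃ f : π.ker →* π₁.ker, Function.Injective f) →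
      ∃ τ : Δ →* P, π.comp τ = MonoidHom.id _) :
    ∃! τ : Δ →* E, π₁.comp τ = σ := by
  -- the pull-back
  let P : Subgroup (E × Δ) := MonoidHom.eqLocus (π₁.comp (MonoidHom.fst E Δ)) (σ.comp (MonoidHom.snd E Δ))
  have hP : ∀ p : P, π₁ (p : E × Δ).1 = σ (p : E × Δ).2 := fun p => p.2
  let π : P →* Δ := (MonoidHom.snd E Δ).comp P.subtype
  have hsurj : Function.Surjective π := by
    intro δ
    obtain ⟨e, he⟩ := hπ (σ δ)
    exact ⟨⟨(e, δ), he⟩, rfl⟩
  have hker : ∀ p : P, p ∈ π.ker → (p : E × Δ).1 ∈ π₁.ker := by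
    intro p hp
    have h2 : (p : E × Δ).2 = 1 := hp
    rw [MonoidHom.mem_ker, hP, h2, map_one]
  have hcen : π.ker ≤ Subgroup.center P := by
    intro p hp
    rw [Subgroup.mem_center_iff]
    intro q
    apply Subtype.ext
    apply Prod.ext
    · exact Subgroup.mem_center_iff.1 (hc (hker p hp)) _
    · have h2 : (p : E × Δ).2 = 1 := hp
      show (q : E × Δ).2 * (p : E × Δ).2 = (p : E × Δ).2 * (q : E × Δ).2
      rw [h2, mul_one, one_mul]
  have hf : ∃ f : π.ker →* π₁.ker, Function.Injective f := by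
    refine ⟨{ toFun := fun p => ⟨((p : P) : E × Δ).1, hker p p.2⟩
              map_one' := rfl
              map_mul' := fun _ _ => rfl }, ?_⟩
    intro p q hpq
    apply Subtype.ext
    apply Subtype.ext
    apply Prod.ext
    · exact congrArg Subtype.val hpq
    · have h2 : ((p : P) : E × Δ).2 = 1 := p.2
      have h3 : ((q : P) : E × Δ).2 = 1 := q.2
      rw [h2, h3]
  obtain ⟨s, hs⟩ := hsplit P π hsurj hcen hf
  refine ⟨(MonoidHom.fst E Δ).comp (P.subtype.comp s), ?_, ?_⟩
  · ext δ
    show π₁ ((s δ : P) : E × Δ).1 = σ δ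
    rw [hP]
    congr 1
    exact DFunLike.congr_fun hs δ
  · intro τ' hτ'
    set τ := (MonoidHom.fst E Δ).comp (P.subtype.comp s) with hτdef
    have hτ : π₁.comp τ = σ := by
      ext δ
      show π₁ ((s δ : P) : E × Δ).1 = σ δ
      rw [hP]
      congr 1
      exact DFunLike.congr_fun hs δ
    have hk : ∀ δ, τ' δ * (τ δ)⁻¹ ∈ π₁.ker := by
      intro δ
      rw [MonoidHom.mem_ker, map_mul, map_inv, ← MonoidHom.comp_apply, ← MonoidHom.comp_apply, hτ, hτ',
        mul_inv_cancel]
    let φ : Δ →* π₁.ker :=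
      { toFun := fun δ => ⟨τ' δ * (τ δ)⁻¹, hk δ⟩
        map_one' := Subtype.ext (by
          show τ' 1 * (τ 1)⁻¹ = 1
          rw [map_one, map_one, inv_one, mul_one])
        map_mul' := fun δ ε => Subtype.ext (by
          show τ' (δ * ε) * (τ (δ * ε))⁻¹ = τ' δ * (τ δ)⁻¹ * (τ' ε * (τ ε)⁻¹)
          rw [map_mul, map_mul, mul_inv_rev]
          have e : τ' δ * τ' ε * ((τ ε)⁻¹ * (τ δ)⁻¹) = τ' δ * ((τ' ε * (τ ε)⁻¹) * (τ δ)⁻¹) := by group
          rw [e, ker_comm hc (hk ε) (τ δ)⁻¹]
          group) }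
    have hφ : commutator Δ ≤ φ.ker := by
      rw [commutator_def, Subgroup.commutator_le]
      intro g _ h _
      rw [MonoidHom.mem_ker, map_commutatorElement, commutatorElement_eq_one_iff_mul_comm]
      exact Subtype.ext (ker_comm hc (φ g).2 (φ h : E))
    ext δ
    have h1 : δ ∈ φ.ker := hφ (by rw [hperf]; exact Subgroup.mem_top _)
    have h2 : τ' δ * (τ δ)⁻¹ = 1 := congrArg Subtype.val (MonoidHom.mem_ker.1 h1)
    exact mul_inv_eq_one.1 h2

end Cfsg.Agent.H134.LiftMain
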