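import Cfsg.Agent.H134.FamInj

/-!
# Lifting a commutator relation through a central extension

`π : E →* G` with central kernel, `x` a family of root elements in `G` satisfying the commutator relations, `y` a
family of lifts, additive in the parameter. One commutator relation for `y` follows from those for "higher" pairs
if there is a torus element (or if the kernel has no `p`-torsion, `p` the characteristic of `K`).
-/

set_option autoImplicit false

namespace Cfsg.Agent.H134.LiftStep

open Cfsg.Lie Cfsg.Agent.ChevalleyStructure.St.Functional Cfsg.Agent.ChevalleyStructure.St.Inj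
  Cfsg.Agent.H134.FamInj

universe u v w

variable {K : Type u} [Field K] {D : ChevalleyDatum} {E : Type v} [Group E] {G : Type w} [Group G]

/-- An element acting on the lifts `y` like a torus element, trivially on `r` and by a scalar `≠ 1` on `s`. -/
def TorGood (D : ChevalleyDatum) (y : ℕ → K → E) (r s : ℕ) : Prop :=
  ∃ (h : E) (a : ℕ → K), (∀ q < D.nroots, ∀ u : K, h * y q u * h⁻¹ = y q (a q * u)) ∧ a r = 1 ∧ a s ≠ 1

/-- The kernel has no `p`-torsion, where `p = 0` in `K`. -/
def PGood (K : Type u) [Field K] (π : E →* G) : Prop := ∃ p : ℕ, (p : K) = 0 ∧ ∀ z ∈ π.ker, z ^ p = 1 → z = 1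

/-- `π : E →* G` has central kernel; `x` is a family in `G` satisfying (R2) with images the root elements under
`θ`; `y` is a family of lifts, additive in the parameter. -/
structure Setup (D : ChevalleyDatum) (π : E →* G) (x : ℕ → K → G) (θ : G →* GL D.Idx K) (y : ℕ → K → E) :
    Prop where
  wf : Wf D
  coroot : ∀ r < D.nroots, ∃ i : Fin D.rank, (((D.coroot.getD r #[]).getD i.val 0 : ℤ) : K) ≠ 0
  central : π.ker ≤ Subgroup.center E
  rel : ∀ r s, r < D.nroots → s < D.nroots → s ≠ r → s ≠ D.neg r → Rel2 D x r s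
  theta : ∀ (r : ℕ) (t : K), r < D.nroots → ((θ (x r t) : GL D.Idx K) : Matrix D.Idx D.Idx K) = D.x K r t
  lift : ∀ (r : ℕ) (t : K), r < D.nroots → π (y r t) = x r t
  add : ∀ r < D.nroots, ∀ t u : K, y r t * y r u = y r (t + u)

variable {π : E →* G} {x : ℕ → K → G} {θ : G →* GL D.Idx K} {y : ℕ → K → E}

theorem Setup.comm (L : Setup D π x θ y) {z : E} (hz : z ∈ π.ker) (g : E) : z * g = g * z :=
  (Subgroup.mem_center_iff.1 (L.central hz) g).symm

theorem Setup.commTerms_lt (L : Setup D π x θ y) {r s : ℕ} (hr : r < D.nroots) (hs : s < D.nroots)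
    {c : ℕ × ℤ × ℕ × ℕ} (hc : c ∈ D.commTerms r s) : c.1 < D.nroots :=
  (commTerms_spec L.wf hr hs hc).1

theorem Setup.map_word (L : Setup D π x θ y) {w : List (ℕ × K)} (hw : ∀ p ∈ w, p.1 < D.nroots) :
    π (wordF y w) = wordF x w := by
  rw [map_wordF]
  exact wordF_congr fun p hp => L.lift p.1 p.2 (hw p hp)

theorem Setup.map_commWord (L : Setup D π x θ y) {r s : ℕ} (hr : r < D.nroots) (hs : s < D.nroots) (t u : K) :
    π (wordF y (D.commWord K r s t u)) = wordF x (D.commWord K r s t u) := by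
  apply L.map_word
  intro p hp
  obtain ⟨c, hc, rfl⟩ := List.mem_map.1 hp
  exact L.commTerms_lt hr hs hc

/-- The kernel meets `⟨y r t : r ∈ S⟩` trivially. -/
theorem Setup.ker_WF (L : Setup D π x θ y) {f : ℕ → ℤ} (hf : Fun D f) {S : ℕ → Prop}
    (hpos : ∀ r < D.nroots, S r → 0 < f r) (hcl : Closed D S)
    (hrel : ∀ r s, r < D.nroots → s < D.nroots → s ≠ r → S r → S s → Rel2 D y r s)
    {z : E} (hz : z ∈ π.ker) (hzW : z ∈ WF D y S) : z = 1 := by
  refine inj_WF (y := y) L.add (θ.comp π) ?_ L.wf L.coroot hf hpos hcl hrel hzW ?_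
  · intro r t hr
    rw [MonoidHom.comp_apply, L.lift r t hr, L.theta r t hr]
  · rw [MonoidHom.comp_apply, MonoidHom.mem_ker.1 hz, map_one]

/-- Two elements of `⟨y r t : r ∈ S⟩` with the same image in `G` are equal. -/
theorem Setup.inj_WF (L : Setup D π x θ y) {f : ℕ → ℤ} (hf : Fun D f) {S : ℕ → Prop}
    (hpos : ∀ r < D.nroots, S r → 0 < f r) (hcl : Closed D S)
    (hrel : ∀ r s, r < D.nroots → s < D.nroots → s ≠ r → S r → S s → Rel2 D y r s)
    {g g' : E} (hg : g ∈ WF D y S) (hg' : g' ∈ WF D y S) (h : π g = π g') : g = g' := by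
  have h1 : g⁻¹ * g' ∈ π.ker := by rw [MonoidHom.mem_ker, map_mul, map_inv, h, inv_mul_cancel]
  have := L.ker_WF hf hpos hcl hrel h1 (mul_mem (inv_mem hg) hg')
  exact inv_mul_eq_one.1 this

/-- A commutator word lies in `⟨y r t : r ∈ S⟩`. -/
theorem Setup.word_mem (L : Setup D π x θ y) {S : ℕ → Prop} {r s : ℕ} (hr : r < D.nroots) (hs : s < D.nroots)
    (hS : ∀ c ∈ D.commTerms r s, S c.1) (t u : K) : wordF y (D.commWord K r s t u) ∈ WF D y S := by
  apply wordF_mem
  intro p hp
  obtain ⟨c, hc, rfl⟩ := List.mem_map.1 hp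
  exact mem_WF y (L.commTerms_lt hr hs hc) (hS c hc) _

theorem Setup.rel_mul (L : Setup D π x θ y) {r s : ℕ} (hr : r < D.nroots) (hs : s < D.nroots) (hsr : s ≠ r)
    (hsn : s ≠ D.neg r) (t u : K) :
    (y s u)⁻¹ * (y r t)⁻¹ * y s u * y r t * (wordF y (D.commWord K r s t u))⁻¹ ∈ π.ker := by
  rw [MonoidHom.mem_ker, map_mul, map_mul, map_mul, map_mul, map_inv, map_inv, map_inv, L.map_commWord hr hs,
    L.lift r t hr, L.lift s u hs]
  have h := L.rel r s hr hs hsr hsn t u
  have h2 : (x s u)⁻¹ * (x r t)⁻¹ * x s u * x r t = wordF x (D.commWord K r s t u) := by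
    calc (x s u)⁻¹ * (x r t)⁻¹ * x s u * x r t = (x s u)⁻¹ * ((x r t)⁻¹ * x s u * x r t) := by group
      _ = wordF x (D.commWord K r s t u) := by rw [h]; group
  rw [h2, mul_inv_cancel]

/-- The main step. -/
theorem Setup.rel2_step (L : Setup D π x θ y) {f : ℕ → ℤ} (hf : Fun D f) {S : ℕ → Prop}
    (hpos : ∀ r < D.nroots, S r → 0 < f r) (hcl : Closed D S)
    (hrel : ∀ r s, r < D.nroots → s < D.nroots → s ≠ r → S r → S s → Rel2 D y r s)
    {r s : ℕ} (hr : r < D.nroots) (hs : s < D.nroots) (hsr : s ≠ r) (hsn : s ≠ D.neg r)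
    (hS1 : ∀ c ∈ D.commTerms r s, S c.1)
    (hS2 : ∀ q < D.nroots, S q → ∀ c ∈ D.commTerms s q, S c.1)
    (hrelS : ∀ q < D.nroots, S q → Rel2 D y s q)
    (hgood : TorGood D y r s ∨ PGood K π) : Rel2 D y r s := by
  intro t
  set w : K → E := fun u => wordF y (D.commWord K r s t u) with hw
  set ψ : K → E := fun u => (y s u)⁻¹ * (y r t)⁻¹ * y s u * y r t * (w u)⁻¹ with hψ
  have hwW : ∀ u, w u ∈ WF D y S := fun u => L.word_mem hr hs hS1 t u
  have hψk : ∀ u, ψ u ∈ π.ker := fun u => L.rel_mul hr hs hsr hsn t u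
  have hc : ∀ u, (y r t)⁻¹ * y s u * y r t = ψ u * (y s u * w u) := by
    intro u
    rw [← mul_assoc, L.comm (hψk u) (y s u)]
    simp only [hψ]; group
  -- `y s u` normalises `W`
  have hnorm : ∀ u, ∀ g ∈ WF D y S, (y s u)⁻¹ * g * y s u ∈ WF D y S := by
    intro u g hg
    unfold WF at hg
    induction hg using Subgroup.closure_induction with
    | one => rw [mul_one, inv_mul_cancel]; exact one_mem _
    | mem g hg =>
      obtain ⟨q, v, hq, hSq, rfl⟩ := hg
      rw [hrelS q hq hSq u v]
      exact mul_mem (mem_WF y hq hSq v) (L.word_mem hs hq (hS2 q hq hSq) u v)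
    | mul a b _ _ iha ihb =>
      have : (y s u)⁻¹ * (a * b) * y s u = ((y s u)⁻¹ * a * y s u) * ((y s u)⁻¹ * b * y s u) := by group
      rw [this]; exact mul_mem iha ihb
    | inv a _ iha =>
      have : (y s u)⁻¹ * a⁻¹ * y s u = ((y s u)⁻¹ * a * y s u)⁻¹ := by group
      rw [this]; exact inv_mem iha
  have hker : ∀ z ∈ π.ker, z ∈ WF D y S → z = 1 := fun z hz hzW => L.ker_WF hf hpos hcl hrel hz hzW
  -- additivity of `ψ`
  have hadd : ∀ u u', ψ (u + u') = ψ u * ψ u' := by
    intro u u'
    have h1 : (y r t)⁻¹ * y s (u + u') * y r t =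
        ((y r t)⁻¹ * y s u * y r t) * ((y r t)⁻¹ * y s u' * y r t) := by
      rw [← L.add s hs]; group
    rw [hc, hc, hc, ← L.add s hs] at h1
    -- ψ(u+u') y s u y s u' w(u+u') = ψ u y s u w u ψ u' y s u' w u'
    have h2 : ψ (u + u') * (y s u * y s u' * w (u + u')) =
        (ψ u * ψ u') * (y s u * y s u' * (((y s u')⁻¹ * w u * y s u') * w u')) := by
      rw [h1]
      have e : ψ u * (y s u * w u) * (ψ u' * (y s u' * w u')) = ψ u * ((y s u * w u) * ψ u') * (y s u' * w u') := by
        group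
      rw [e, ← L.comm (hψk u') (y s u * w u)]
      group
    set z := (ψ u * ψ u')⁻¹ * ψ (u + u') with hz
    have hzk : z ∈ π.ker := mul_mem (inv_mem (mul_mem (hψk u) (hψk u'))) (hψk _)
    have h3 : z = (((y s u')⁻¹ * w u * y s u') * w u') * (w (u + u'))⁻¹ := by
      have h4 : z * (y s u * y s u' * w (u + u')) = y s u * y s u' * (((y s u')⁻¹ * w u * y s u') * w u') := by
        rw [hz, mul_assoc, h2, inv_mul_cancel_left]
      rw [← mul_assoc, L.comm hzk (y s u * y s u')] at h4
      rw [mul_assoc (y s u * y s u')] at h4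
      have h5 := mul_left_cancel h4
      rw [← h5]; group
    have h6 : z = 1 := by
      apply hker z hzk
      rw [h3]
      exact mul_mem (mul_mem (hnorm u' _ (hwW u)) (hwW u')) (inv_mem (hwW _))
    rw [hz, inv_mul_eq_one] at h6
    exact h6.symm
  have hψ0 : ψ 0 = 1 := by
    have := hadd 0 0
    rw [add_zero] at this
    exact left_eq_mul.1 this
  have hfin : ∀ u, ψ u = 1 := by
    rcases hgood with ⟨h, a, ha, har, has⟩ | ⟨p, hp, htor⟩
    · have hinv : ∀ u, ψ (a s * u) = ψ u := by
        intro u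
        have h1 : h * ((y r t)⁻¹ * y s u * y r t) * h⁻¹ = (y r t)⁻¹ * y s (a s * u) * y r t := by
          have e1 := ha r hr t
          rw [har, one_mul] at e1
          have e2 := ha s hs u
          calc h * ((y r t)⁻¹ * y s u * y r t) * h⁻¹ =
              (h * y r t * h⁻¹)⁻¹ * (h * y s u * h⁻¹) * (h * y r t * h⁻¹) := by group
            _ = _ := by rw [e1, e2]
        have h2 : h * (ψ u * (y s u * w u)) * h⁻¹ = ψ u * (y s (a s * u) * (h * w u * h⁻¹)) := by
          calc h * (ψ u * (y s u * w u)) * h⁻¹ = (h * ψ u) * (y s u * w u) * h⁻¹ := by group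
            _ = (ψ u * h) * (y s u * w u) * h⁻¹ := by rw [L.comm (hψk u) h]
            _ = ψ u * ((h * y s u * h⁻¹) * (h * w u * h⁻¹)) := by group
            _ = _ := by rw [ha s hs u]
        rw [hc, hc, h2] at h1
        have hwmem : h * w u * h⁻¹ ∈ WF D y S := by
          simp only [hw]
          rw [conj_wordF]
          apply wordF_mem
          intro p hp
          obtain ⟨c, hcc, rfl⟩ := List.mem_map.1 hp
          show h * y c.1 _ * h⁻¹ ∈ _
          rw [ha c.1 (L.commTerms_lt hr hs hcc)]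
          exact mem_WF y (L.commTerms_lt hr hs hcc) (hS1 c hcc) _
        set z := (ψ u)⁻¹ * ψ (a s * u) with hz
        have hzk : z ∈ π.ker := mul_mem (inv_mem (hψk u)) (hψk _)
        have h3 : z = (h * w u * h⁻¹) * (w (a s * u))⁻¹ := by
          have h4 : z * (y s (a s * u) * w (a s * u)) = y s (a s * u) * (h * w u * h⁻¹) := by
            rw [hz, mul_assoc, ← h1, inv_mul_cancel_left]
          rw [← mul_assoc, L.comm hzk (y s (a s * u)), mul_assoc] at h4
          have h5 := mul_left_cancel h4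
          rw [← h5]; group
        have h6 : z = 1 := by
          apply hker z hzk
          rw [h3]
          exact mul_mem hwmem (inv_mem (hwW _))
        rw [hz, inv_mul_eq_one] at h6
        exact h6.symm
      intro u
      have h1 : ψ ((a s - 1) * (u / (a s - 1))) * ψ (u / (a s - 1)) = ψ (a s * (u / (a s - 1))) := by
        rw [← hadd]
        congr 1
        ring
      rw [hinv, mul_div_cancel₀ _ (sub_ne_zero.2 has)] at h1
      exact mul_eq_right.1 h1
    · intro u
      apply htor _ (hψk u)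
      have : ∀ n : ℕ, ψ ((n : K) * u) = ψ u ^ n := by
        intro n
        induction n with
        | zero => rw [Nat.cast_zero, zero_mul, hψ0, pow_zero]
        | succ n ih => rw [Nat.cast_succ, add_mul, one_mul, hadd, ih, pow_succ]
      rw [← this p, hp, zero_mul, hψ0]
  intro u
  rw [hc u, hfin u, one_mul]

/-- Symmetry of the commutator relation. -/
theorem Setup.rel2_symm (L : Setup D π x θ y) {f : ℕ → ℤ} (hf : Fun D f) {S : ℕ → Prop}
    (hpos : ∀ r < D.nroots, S r → 0 < f r) (hcl : Closed D S)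
    (hrel : ∀ r s, r < D.nroots → s < D.nroots → s ≠ r → S r → S s → Rel2 D y r s)
    {r s : ℕ} (hr : r < D.nroots) (hs : s < D.nroots) (hsr : s ≠ r) (hsn : s ≠ D.neg r)
    (hS1 : ∀ c ∈ D.commTerms r s, S c.1) (hS1' : ∀ c ∈ D.commTerms s r, S c.1)
    (h : Rel2 D y s r) : Rel2 D y r s := by
  intro t u
  have h1 := h u t
  -- (y s u)⁻¹ y r t y s u = y r t w'
  set w' := wordF y (D.commWord K s r u t) with hw'
  have h2 : (y r t)⁻¹ * y s u * y r t = y s u * w'⁻¹ := by
    have e : w' = (y r t)⁻¹ * (y s u)⁻¹ * y r t * y s u := by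
      calc w' = (y r t)⁻¹ * (y r t * w') := by group
        _ = _ := by rw [← h1]; group
    rw [e]; group
  have h3 : w'⁻¹ = wordF y (D.commWord K r s t u) := by
    apply L.inj_WF hf hpos hcl hrel (inv_mem (L.word_mem hs hr hS1' u t)) (L.word_mem hr hs hS1 t u)
    have h4 := congrArg π h2
    rw [map_mul, map_mul, map_inv, map_mul, L.lift r t hr, L.lift s u hs, L.rel r s hr hs hsr hsn t u] at h4
    rw [L.map_commWord hr hs]
    exact (mul_left_cancel h4).symm
  rw [h2, h3]

end Cfsg.Agent.H134.LiftStep
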