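import Cfsg.Agent.H134.LiftMain
import Cfsg.Agent.S2395

/-!
# Central extensions with kernel without `p`-torsion split (finite fields)

`K` a finite field of characteristic `p`, `π : P →* D.SteinbergCover K` surjective with central kernel without
elements of order `p`: then `π` splits, for all seven tabulated data (perfect ones).
-/

set_option autoImplicit false

namespace Cfsg.Agent.H134.TorsionFree

open Cfsg.Lie Cfsg.Agent.ChevalleyStructure Cfsg.Agent.ChevalleyStructure.Elts
  Cfsg.Agent.H133.ScRels Cfsg.Agent.H133.ScTheta Cfsg.Agent.H134.FamInj Cfsg.Agent.H134.LiftStep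
  Cfsg.Agent.H134.Lift Cfsg.Agent.H134.LiftMain

open scoped commutatorElement

universe u v

/-- Schur: the derived group of a group with centre of finite index is finite. -/
theorem finite_commutator {E : Type v} [Group E] (h : (Subgroup.center E).FiniteIndex) : Finite (commutator E) := by
  have hfin : Finite (E ⧸ Subgroup.center E) := Subgroup.finite_quotient_of_finiteIndex
  have hsub : commutatorSet E ⊆ Set.range
      (fun p : (E ⧸ Subgroup.center E) × (E ⧸ Subgroup.center E) => ⁅p.1.out, p.2.out⁆) := by
    rintro g ⟨g₁, g₂, rfl⟩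
    refine ⟨((g₁ : E ⧸ Subgroup.center E), (g₂ : E ⧸ Subgroup.center E)), ?_⟩
    apply comm_congr (π := QuotientGroup.mk' (Subgroup.center E))
    · rw [QuotientGroup.ker_mk']
    · exact QuotientGroup.out_eq' _
    · exact QuotientGroup.out_eq' _
  have : Finite (commutatorSet E) := Set.Finite.subset (Set.finite_range _) hsub
  infer_instance

section

variable {K : Type u} [Field K] {D : ChevalleyDatum} {P : Type v} [Group P] {π : P →* D.SteinbergCover K}

/-- The centre of a central extension has finite index. -/
theorem finiteIndex_center [Finite K] (hD : InList D) (hsurj : Function.Surjective π)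
    (hc : π.ker ≤ Subgroup.center P) (hperf : commutator (D.SteinbergCover K) = ⊤) :
    (Subgroup.center P).FiniteIndex := by
  have hle : ((theta hD K).comp π).ker ≤ Subgroup.center P := by
    intro g hg
    apply central_of_map hsurj hc hperf
    apply Cfsg.Agent.H133.ScCentral.ker_le_center hD
    exact hg
  have hfin : Finite (GL D.Idx K) := inferInstance
  have hfin2 : Finite ↥(D.group K) := inferInstance
  have hfi : ((theta hD K).comp π).ker.FiniteIndex := by
    have : Finite ((theta hD K).comp π).range := inferInstance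
    exact Subgroup.finiteIndex_ker _
  exact Subgroup.finiteIndex_of_le hle

variable {E : Type v} [Group E] {π : E →* D.SteinbergCover K}

/-- Finite extension, kernel without `p`-torsion. -/
theorem exists_section_finite [Finite E] (hD : InList D) (hsurj : Function.Surjective π)
    (hc : π.ker ≤ Subgroup.center E) {p : ℕ} [hp : Fact p.Prime] [CharP K p]
    (htor : ∀ z ∈ π.ker, z ^ p = 1 → z = 1) :
    ∃ τ : D.SteinbergCover K →* E, π.comp τ = MonoidHom.id _ := by
  -- the order of the kernel is prime to `p`
  set N := Nat.card π.ker with hN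
  have hN0 : N ≠ 0 := Nat.card_pos.ne'
  have hcop : Nat.Coprime p N := by
    rw [Nat.Prime.coprime_iff_not_dvd hp.out]
    intro hdvd
    obtain ⟨z, hz⟩ := exists_prime_orderOf_dvd_card' p hdvd
    have h1 : (z : E) ^ p = 1 := by
      have := pow_orderOf_eq_one z
      rw [hz] at this
      exact_mod_cast congrArg Subtype.val this
    have h2 := htor z z.2 h1
    have h3 : z = 1 := Subtype.ext h2
    rw [h3, orderOf_one] at hz
    exact hp.out.one_lt.ne hz
  obtain ⟨k, hk1, hk2⟩ := Nat.chineseRemainder hcop 1 0
  have hkN : N ∣ k := (Nat.modEq_zero_iff_dvd).1 hk2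
  let l := Function.surjInv hsurj
  have hl : ∀ δ, π (l δ) = δ := Function.surjInv_eq hsurj
  have hxp : ∀ (r : ℕ) (t : K), D.scGen K r t ^ p = 1 := by
    intro r t
    have : ∀ n : ℕ, D.scGen K r t ^ n = D.scGen K r (n * t) := by
      intro n
      induction n with
      | zero => rw [pow_zero, Nat.cast_zero, zero_mul, scGen_zero]
      | succ n ih => rw [pow_succ, ih, scGen_add', Nat.cast_succ]; congr 1; ring
    rw [this, CharP.cast_eq_zero, zero_mul, scGen_zero]
  let y : ℕ → K → E := fun r t => l (D.scGen K r t) ^ k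
  have hy : ∀ (r : ℕ) (t : K), π (y r t) = D.scGen K r t := by
    intro r t
    show π (l (D.scGen K r t) ^ k) = _
    rw [map_pow, hl]
    have h1 : D.scGen K r t ^ k = D.scGen K r t ^ 1 := by
      rw [pow_eq_pow_iff_modEq]
      exact hk1.of_dvd (orderOf_dvd_of_pow_eq_one (hxp r t))
    rw [h1, pow_one]
  have hyp : ∀ (r : ℕ) (t : K), y r t ^ p = 1 := by
    intro r t
    show (l (D.scGen K r t) ^ k) ^ p = 1
    rw [← pow_mul, mul_comm, pow_mul]
    have h1 : l (D.scGen K r t) ^ p ∈ π.ker := by rw [MonoidHom.mem_ker, map_pow, hl, hxp]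
    obtain ⟨m, rfl⟩ := hkN
    rw [pow_mul]
    have h2 : (⟨_, h1⟩ : π.ker) ^ N = 1 := pow_card_eq_one'
    have h3 : (l (D.scGen K r t) ^ p) ^ N = 1 := congrArg Subtype.val h2
    rw [h3, one_pow]
  -- commuting images give commuting lifts
  have hcomm : ∀ a b : E, a ^ p = 1 → π a * π b = π b * π a → a * b = b * a := by
    intro a b ha hab
    have h1 : ⁅a, b⁆ ∈ π.ker := by
      rw [MonoidHom.mem_ker, map_commutatorElement, commutatorElement_eq_one_iff_mul_comm]; exact hab
    have h2 : a * b * a⁻¹ = ⁅a, b⁆ * b := by simp only [commutatorElement_def]; group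
    have h3 : ∀ n : ℕ, a ^ n * b * (a ^ n)⁻¹ = ⁅a, b⁆ ^ n * b := by
      intro n
      induction n with
      | zero => simp
      | succ n ih =>
        have e : a ^ (n + 1) * b * (a ^ (n + 1))⁻¹ = a * (a ^ n * b * (a ^ n)⁻¹) * a⁻¹ := by
          rw [pow_succ']; group
        rw [e, ih]
        have e2 : a * (⁅a, b⁆ ^ n * b) * a⁻¹ = (a * ⁅a, b⁆ ^ n) * b * a⁻¹ := by group
        rw [e2, ← ker_comm hc (pow_mem h1 n) a]
        have e3 : ⁅a, b⁆ ^ n * a * b * a⁻¹ = ⁅a, b⁆ ^ n * (a * b * a⁻¹) := by group
        rw [e3, h2, ← mul_assoc, pow_succ]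
    have h4 := h3 p
    rw [ha, inv_one, mul_one, one_mul] at h4
    exact commutatorElement_eq_one_iff_mul_comm.1 (htor _ h1 (left_eq_mul.1 (by
      rw [ker_comm hc (pow_mem h1 p)] at h4; exact h4)))
  have hadd : ∀ r < D.nroots, ∀ t u : K, y r t * y r u = y r (t + u) := by
    intro r _ t u
    have h1 : y r t * y r u = y r u * y r t := by
      apply hcomm _ _ (hyp r t)
      rw [hy, hy, scGen_add', scGen_add', add_comm]
    have h2 : y r t * y r u * (y r (t + u))⁻¹ ∈ π.ker := by
      rw [MonoidHom.mem_ker, map_mul, map_mul, map_inv, hy, hy, hy, scGen_add', mul_inv_cancel]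
    have h3 : (y r t * y r u * (y r (t + u))⁻¹) ^ p = 1 := by
      have e : y r t * y r u = (y r t * y r u * (y r (t + u))⁻¹) * y r (t + u) := by group
      have hcz : Commute (y r t * y r u * (y r (t + u))⁻¹) (y r (t + u)) := ker_comm hc h2 _
      have h4 : (y r t * y r u) ^ p = 1 := by
        rw [(show Commute (y r t) (y r u) from h1).mul_pow, hyp, hyp, one_mul]
      rw [e, hcz.mul_pow, hyp, mul_one] at h4
      exact h4
    exact mul_inv_eq_one.1 (htor _ h2 h3)
  have L := setup (y := y) hD hc (fun r t _ => hy r t) hadd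
  refine exists_section hD (fun r t _ => hy r t) hadd (rel2_all hD L ?_)
  intro r s _ _ _ _
  exact Or.inr ⟨p, CharP.cast_eq_zero K p, htor⟩

/-- **Central extensions with kernel without `p`-torsion split.** -/
theorem exists_section [Finite K] (hD : InList D) (hperf : commutator (D.SteinbergCover K) = ⊤)
    (hsurj : Function.Surjective π)
    (hc : π.ker ≤ Subgroup.center E) {p : ℕ} [hp : Fact p.Prime] [CharP K p]
    (htor : ∀ z ∈ π.ker, z ^ p = 1 → z = 1) :
    ∃ τ : D.SteinbergCover K →* E, π.comp τ = MonoidHom.id _ := by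
  have hfin : Finite (commutator E) := finite_commutator (finiteIndex_center hD hsurj hc hperf)
  let π' : commutator E →* D.SteinbergCover K := π.comp (commutator E).subtype
  have hsurj' : Function.Surjective π' := by
    intro δ
    obtain ⟨g, rfl⟩ := hsurj δ
    obtain ⟨k, hk, z, hz, rfl⟩ := exists_mul_of_perfect hsurj hperf g
    exact ⟨⟨k, hk⟩, by show π k = π (k * z); rw [map_mul, MonoidHom.mem_ker.1 hz, mul_one]⟩
  have hc' : π'.ker ≤ Subgroup.center (commutator E) := by
    intro z hz
    rw [Subgroup.mem_center_iff]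
    intro g
    apply Subtype.ext
    exact (ker_comm hc (show (z : E) ∈ π.ker from hz) (g : E)).symm
  obtain ⟨τ, hτ⟩ := exists_section_finite (π := π') hD hsurj' hc' (p := p) (fun z hz h =>
    Subtype.ext (htor z hz (congrArg Subtype.val h)))
  exact ⟨(commutator E).subtype.comp τ, hτ⟩

end

end Cfsg.Agent.H134.TorsionFree
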