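import Cfsg.Agent.H134.LiftMain
import Cfsg.Agent.S2395

/-!
# Universality of the group presented by (R1), (R2) over a field with more than four elements
-/

set_option autoImplicit false

namespace Cfsg.Agent.H134.Universal

open Cfsg.Lie Cfsg.Agent.ChevalleyStructure Cfsg.Agent.ChevalleyStructure.Elts
  Cfsg.Agent.ChevalleyStructure.St.Functional
  Cfsg.Agent.H133.ScRels Cfsg.Agent.H133.ScTheta Cfsg.Agent.H134.FamInj Cfsg.Agent.H134.LiftStep
  Cfsg.Agent.H134.Lift Cfsg.Agent.H134.LiftMain
open Cfsg.Agent.ChevalleyStructure.St.Conj (lin lin_def lin_comb lin_neg Tab)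

universe u v w

/-! ### Fields with more than four elements -/

section field

variable {K : Type u} [Field K]

theorem exists_pow_ne (hK : ∃ s : Finset K, 4 < s.card) {d : ℕ} (h1 : 0 < d) (h3 : d ≤ 3) :
    ∃ c : K, c ≠ 0 ∧ c ^ d ≠ 1 := by
  classical
  obtain ⟨s, hs⟩ := hK
  by_contra hcon
  push Not at hcon
  have hsub : s ⊆ insert 0 (Polynomial.nthRoots d (1 : K)).toFinset := by
    intro c _
    rw [Finset.mem_insert, Multiset.mem_toFinset, Polynomial.mem_nthRoots h1]
    by_cases h0 : c = 0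
    · exact Or.inl h0
    · exact Or.inr (hcon c h0)
  have h4 := Finset.card_le_card hsub
  have h5 := Finset.card_insert_le (0 : K) (Polynomial.nthRoots d (1 : K)).toFinset
  have h6 := Multiset.toFinset_card_le (Polynomial.nthRoots d (1 : K))
  have h7 := Polynomial.card_nthRoots d (1 : K)
  omega

theorem exists_scalar (hK : ∃ s : Finset K, 4 < s.card) : ∃ c : K, c ≠ 0 ∧ 1 - c ≠ 0 ∧ c * (1 - c) ≠ 1 := by
  classical
  obtain ⟨s, hs⟩ := hK
  by_contra hcon
  push Not at hcon
  let p : Polynomial K := Polynomial.X ^ 2 - Polynomial.X + 1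
  have hp : p.natDegree = 2 := by
    show (Polynomial.X ^ 2 - Polynomial.X + 1 : Polynomial K).natDegree = 2
    compute_degree!
  have hp0 : p ≠ 0 := by
    intro h
    rw [h] at hp
    simp at hp
  have hsub : s ⊆ insert 0 (insert 1 p.roots.toFinset) := by
    intro c _
    rw [Finset.mem_insert, Finset.mem_insert, Multiset.mem_toFinset, Polynomial.mem_roots hp0]
    by_cases h0 : c = 0
    · exact Or.inl h0
    by_cases h1 : c = 1
    · exact Or.inr (Or.inl h1)
    · refine Or.inr (Or.inr ?_)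
      have h2 := hcon c h0 (sub_ne_zero.2 (Ne.symm h1))
      show Polynomial.eval c (Polynomial.X ^ 2 - Polynomial.X + 1) = 0
      simp only [Polynomial.eval_add, Polynomial.eval_sub, Polynomial.eval_pow, Polynomial.eval_X,
        Polynomial.eval_one]
      linear_combination -h2
  have h4 := Finset.card_le_card hsub
  have h5 := Finset.card_insert_le (0 : K) (insert 1 p.roots.toFinset)
  have h5' := Finset.card_insert_le (1 : K) p.roots.toFinset
  have h6 := Multiset.toFinset_card_le p.roots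
  have h7 := Polynomial.card_roots' p
  omega

end field

/-! ### Commuting root subgroups -/

section comm

variable {K : Type u} [Field K] {D : ChevalleyDatum}

theorem comm_of_nil {r s : ℕ} (hr : r < D.nroots) (hs : s < D.nroots) (hsr : s ≠ r) (hsn : s ≠ D.neg r)
    (h : D.commTerms r s = []) (t u : K) :
    D.scGen K r t * D.scGen K s u = D.scGen K s u * D.scGen K r t := by
  have h1 := scGen_conj hr hs hsr hsn t u
  have h2 : D.commWord K r s t u = [] := by
    show (D.commTerms r s).map _ = []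
    rw [h]; rfl
  rw [h2, word_nil, mul_one, mul_assoc, inv_mul_eq_iff_eq_mul] at h1
  exact h1.symm

/-- A root element of the long root `s = 2a + b` as a product of root elements for `a`, `b`, `a + b`. -/
theorem mem_closure_long {a b c s : ℕ} (ha : a < D.nroots) (hb : b < D.nroots) (hba : b ≠ a) (hbn : b ≠ D.neg a)
    {C₁ C₂ : ℤ} (hC : C₂ = 1 ∨ C₂ = -1) (h : D.commTerms a b = [(c, C₁, 1, 1), (s, C₂, 2, 1)]) (u : K) :
    D.scGen K s u ∈ Subgroup.closure {x | ∃ q ∈ ({a, b, c} : Set ℕ), ∃ v : K, x = D.scGen K q v} := by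
  have h1 := scGen_comm (K := K) ha hb hba hbn 1 ((C₂ : K) * u)
  have h2 : word D K (D.commWord K a b 1 ((C₂ : K) * u)) =
      D.scGen K c ((C₁ : K) * (-1) ^ 1 * ((C₂ : K) * u) ^ 1) * D.scGen K s u := by
    show word D K ((D.commTerms a b).map fun c => (c.1, (c.2.1 : K) * (-1) ^ c.2.2.1 * ((C₂ : K) * u) ^ c.2.2.2)) = _
    rw [h, List.map_cons, List.map_cons, List.map_nil, word_cons, word_cons, word_nil, mul_one]
    congr 2
    show (C₂ : K) * (-1) ^ 2 * ((C₂ : K) * u) ^ 1 = u
    rcases hC with rfl | rfl <;> push_cast <;> ring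
  rw [h2] at h1
  have h3 : D.scGen K s u = (D.scGen K c ((C₁ : K) * (-1) ^ 1 * ((C₂ : K) * u) ^ 1))⁻¹ *
      ((D.scGen K b ((C₂ : K) * u))⁻¹ * (D.scGen K a 1)⁻¹ * D.scGen K b ((C₂ : K) * u) * D.scGen K a 1) := by
    rw [h1]; group
  rw [h3]
  have hm : ∀ q ∈ ({a, b, c} : Set ℕ), ∀ v : K, D.scGen K q v ∈
      Subgroup.closure {x | ∃ q ∈ ({a, b, c} : Set ℕ), ∃ v : K, x = D.scGen K q v} :=
    fun q hq v => Subgroup.subset_closure ⟨q, hq, v, rfl⟩
  have ma := hm a (by simp)
  have mb := hm b (by simp)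
  have mc := hm c (by simp)
  exact mul_mem (inv_mem (mc _)) (mul_mem (mul_mem (mul_mem (inv_mem (mb _)) (inv_mem (ma _))) (mb _)) (ma _))

end comm

/-! ### The universal property -/

section main

variable {K : Type u} [Field K] {D : ChevalleyDatum}

theorem exists_act_pair (hD : InList D) (hK : ∃ s : Finset K, 4 < s.card) {r s : ℕ} (hr : r < D.nroots)
    (hs : s < D.nroots) (hsr : s ≠ r) (hsn : s ≠ D.neg r) :
    ∃ (h : D.SteinbergCover K) (a : ℕ → K), Act h a ∧ a r = 1 ∧ a s ≠ 1 := by
  obtain ⟨m, hm0, hm⟩ := PairFacts.exists_tor hD hr hs hsr hsn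
  obtain ⟨d, hd1, hd3, hd⟩ : ∃ d : ℕ, 0 < d ∧ d ≤ 3 ∧ lin D m s = d := by
    rcases hm with h | h | h
    · exact ⟨1, by norm_num, by norm_num, by rw [h]; norm_num⟩
    · exact ⟨2, by norm_num, by norm_num, by rw [h]; norm_num⟩
    · exact ⟨3, by norm_num, by norm_num, by rw [h]; norm_num⟩
  obtain ⟨c, hc0, hc⟩ := exists_pow_ne hK hd1 hd3
  obtain ⟨h, H⟩ := exists_act hD m hc0
  refine ⟨h, _, H, ?_, ?_⟩
  · show c ^ lin D m r = 1
    rw [hm0, zpow_zero]
  · show c ^ lin D m s ≠ 1
    rw [hd, zpow_natCast]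
    exact hc

theorem exists_act_self (hD : InList D) (hK : ∃ s : Finset K, 4 < s.card) {s : ℕ}
    (hs : s < D.nroots) : ∃ (h : D.SteinbergCover K) (a : ℕ → K), Act h a ∧ a s ≠ 1 := by
  obtain ⟨c, hc0, hc⟩ := exists_pow_ne hK (d := 2) (by norm_num) (by norm_num)
  obtain ⟨h, H⟩ := exists_act hD (RootCombGood.co D s) hc0
  refine ⟨h, _, H, ?_⟩
  show c ^ lin D (RootCombGood.co D s) s ≠ 1
  rw [PairFacts.lin_co, (RootComb.good_of_mem hD).car_self hs]
  exact_mod_cast hc

theorem perfect (hD : InList D) (hK : ∃ s : Finset K, 4 < s.card) : commutator (D.SteinbergCover K) = ⊤ := by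
  refine Cfsg.Agent.S2395.result D hD fun _ => ?_
  obtain ⟨c, hc0, hc⟩ := exists_pow_ne hK (d := 1) (by norm_num) (by norm_num)
  exact ⟨c, hc0, by rwa [pow_one] at hc⟩

variable {E : Type v} [Group E] {π : E →* D.SteinbergCover K}

theorem ab_of_one (hD : InList D) (hK : ∃ s : Finset K, 4 < s.card) (hsurj : Function.Surjective π)
    (hc : π.ker ≤ Subgroup.center E) {s : ℕ} (hs : s < D.nroots) (h : ∃ m : ℕ → ℤ, lin D m s = 1) : Ab D π s := by
  obtain ⟨m, hm⟩ := h
  refine ab_of_scalars hsurj hc hs (fun c hc0 => ?_) (exists_scalar hK)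
  obtain ⟨h, H⟩ := exists_act hD m hc0
  exact ⟨h, _, H, by show c ^ lin D m s = c; rw [hm, zpow_one]⟩

/-- The long roots of `B₂`. -/
theorem ab_long (hsurj : Function.Surjective π)
    (hc : π.ker ≤ Subgroup.center E) {a b c s : ℕ} (ha : a < D.nroots) (hb : b < D.nroots) (hcr : c < D.nroots)
    (hs : s < D.nroots) (hba : b ≠ a) (hbn : b ≠ D.neg a)
    {C₁ C₂ : ℤ} (hC : C₂ = 1 ∨ C₂ = -1) (h : D.commTerms a b = [(c, C₁, 1, 1), (s, C₂, 2, 1)])
    (h1 : ∀ q ∈ ({a, b, c} : Set ℕ), q ≠ s ∧ q ≠ D.neg s ∧ D.commTerms s q = [])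
    (hact : ∀ q ∈ ({a, b, c} : Set ℕ), ∃ (h : D.SteinbergCover K) (a : ℕ → K), Act h a ∧ a s = 1 ∧ a q ≠ 1) :
    Ab D π s := by
  refine ab_of_closure hsurj hc (Q := {a, b, c}) (fun u => mem_closure_long ha hb hba hbn hC h u) ?_
  intro q hq p p' t v hp hp'
  have hq' : q < D.nroots := by
    rcases hq with rfl | rfl | rfl
    · exact ha
    · exact hb
    · exact hcr
  obtain ⟨h2, h3, h4⟩ := h1 q hq
  obtain ⟨g, A, H, h5, h6⟩ := hact q hq
  exact commute_of_act hsurj hc hs hq' (comm_of_nil hs hq' h2 h3 h4) H h5 h6 hp hp'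

theorem ab_B2 (hK : ∃ s : Finset K, 4 < s.card) {π : E →* chevB2.SteinbergCover K}
    (hsurj : Function.Surjective π) (hc : π.ker ≤ Subgroup.center E) {s : ℕ} (hs : s < 8) : Ab chevB2 π s := by
  have hD : InList chevB2 := by simp [InList]
  have long : ∀ {a b c s : ℕ} (_ : a < chevB2.nroots) (_ : b < chevB2.nroots) (_ : c < chevB2.nroots)
      (_ : s < chevB2.nroots) (_ : b ≠ a) (_ : b ≠ chevB2.neg a)
      {C₁ C₂ : ℤ} (_ : C₂ = 1 ∨ C₂ = -1) (_ : chevB2.commTerms a b = [(c, C₁, 1, 1), (s, C₂, 2, 1)])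
      (_ : ∀ q ∈ ({a, b, c} : Set ℕ), q ≠ s ∧ q ≠ chevB2.neg s ∧ chevB2.commTerms s q = []), Ab chevB2 π s := by
    intro a b c s ha hb hc' hs hba hbn C₁ C₂ hC h h1
    refine ab_long hsurj hc ha hb hc' hs hba hbn hC h h1 ?_
    intro q hq
    have hq' : q < chevB2.nroots := by
      rcases hq with rfl | rfl | rfl
      · exact ha
      · exact hb
      · exact hc'
    exact exists_act_pair hD hK hs hq' (h1 q hq).1 (h1 q hq).2.1
  have short : ∀ {s : ℕ} (_ : s < chevB2.nroots) (i : ℕ) (e : ℤ) (_ : i < 2) (_ : e * chevB2.cartan i s = 1),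
      Ab chevB2 π s := by
    intro s hs i e hi he
    refine ab_of_one hD hK hsurj hc hs ⟨fun j => if j = i then e else 0, ?_⟩
    rw [lin_def, Finset.sum_eq_single i]
    · rw [if_pos rfl, he]
    · intro j _ hj; rw [if_neg hj, zero_mul]
    · intro h; exact absurd (Finset.mem_range.2 hi) h
  interval_cases s
  · exact long (a := 2) (b := 3) (c := 1) (s := 0) (C₁ := (chevB2.commTerms 2 3).head!.2.1)
      (C₂ := (chevB2.commTerms 2 3).getLast!.2.1) (by decide) (by decide) (by decide) (by decide) (by decide)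
      (by decide) (by decide) (by decide) (by simp only [Set.mem_insert_iff, Set.mem_singleton_iff, forall_eq_or_imp, forall_eq]; decide)
  · exact short (s := 1) (by decide) 1 (-1) (by decide) (by decide)
  · exact short (s := 2) (by decide) 1 1 (by decide) (by decide)
  · exact long (a := 1) (b := 7) (c := 5) (s := 3) (C₁ := (chevB2.commTerms 1 7).head!.2.1)
      (C₂ := (chevB2.commTerms 1 7).getLast!.2.1) (by decide) (by decide) (by decide) (by decide) (by decide)
      (by decide) (by decide) (by decide) (by simp only [Set.mem_insert_iff, Set.mem_singleton_iff, forall_eq_or_imp, forall_eq]; decide)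
  · exact long (a := 6) (b := 0) (c := 2) (s := 4) (C₁ := (chevB2.commTerms 6 0).head!.2.1)
      (C₂ := (chevB2.commTerms 6 0).getLast!.2.1) (by decide) (by decide) (by decide) (by decide) (by decide)
      (by decide) (by decide) (by decide) (by simp only [Set.mem_insert_iff, Set.mem_singleton_iff, forall_eq_or_imp, forall_eq]; decide)
  · exact short (s := 5) (by decide) 1 (-1) (by decide) (by decide)
  · exact short (s := 6) (by decide) 1 1 (by decide) (by decide)
  · exact long (a := 5) (b := 4) (c := 6) (s := 7) (C₁ := (chevB2.commTerms 5 4).head!.2.1)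
      (C₂ := (chevB2.commTerms 5 4).getLast!.2.1) (by decide) (by decide) (by decide) (by decide) (by decide)
      (by decide) (by decide) (by decide) (by simp only [Set.mem_insert_iff, Set.mem_singleton_iff, forall_eq_or_imp, forall_eq]; decide)

/-- All root subgroups have abelian preimage. -/
theorem ab_all (hD : InList D) (hK : ∃ s : Finset K, 4 < s.card) (hsurj : Function.Surjective π)
    (hc : π.ker ≤ Subgroup.center E) {s : ℕ} (hs : s < D.nroots) : Ab D π s := by
  by_cases h : D = chevB2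
  · subst h
    exact ab_B2 hK hsurj hc hs
  · have hD' : D ∈ [chevG2, chevD4, chevF4, chevE6, chevE7, chevE8] := by
      simp only [InList, List.mem_cons, List.not_mem_nil, or_false] at hD ⊢
      tauto
    exact ab_of_one hD hK hsurj hc hs (PairFacts.exists_one hD (PairFacts.chk1_of_mem hD') hs)

/-- **Every central extension of the group presented by (R1), (R2) splits** (more than four elements). -/
theorem exists_section (hD : InList D) (hK : ∃ s : Finset K, 4 < s.card) (hsurj : Function.Surjective π)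
    (hc : π.ker ≤ Subgroup.center E) : ∃ τ : D.SteinbergCover K →* E, π.comp τ = MonoidHom.id _ :=
  exists_section_of_act hD hsurj hc (perfect hD hK) (fun _ hs => exists_act_self hD hK hs)
    (fun _ hs => ab_all hD hK hsurj hc hs) (fun _ _ hr hs hsr hsn => exists_act_pair hD hK hr hs hsr hsn)

end main

end Cfsg.Agent.H134.Universal
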